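/-
Chevalley groups: an irreducible character of full `p`-part in its degree is a constituent of the Steinberg character.
-/
import Cfsg.Agent.Lib.BNSt.Lat
import Cfsg.Agent.Lib.BNSt.ChevYok
import Cfsg.Agent.Lib.Char.BrauerPerm
import Cfsg.Agent.Lib.Char.Invariants
import Cfsg.Agent.Lib.Char.DefectZero

set_option autoImplicit false

namespace Cfsg.Agent.Lib.BNSt

open Cfsg Cfsg.Lie Cfsg.Agent.Lib.Chev Cfsg.Agent.Lib.BN Cfsg.Agent.Lib.Char Matrix Module

section Helpers

variable {G : Type*} [Group G] [Finite G] {n : ℕ} {O : ValuationSubring ℂ}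

lemma Ac_mulVec (A : G →* Matrix (Fin n) (Fin n) O) (g : G) (y : Fin n → O) :
    Ac A g *ᵥ (fun i => (y i : ℂ)) = fun i => ((A g *ᵥ y) i : ℂ) := by
  ext i
  exact (RingHom.map_mulVec O.subtype (A g) y i).symm

lemma Ar_mulVec (A : G →* Matrix (Fin n) (Fin n) O) (g : G) (y : Fin n → O) :
    Ar A g *ᵥ (fun i => IsLocalRing.residue O (y i)) = fun i => IsLocalRing.residue O ((A g *ᵥ y) i) := by
  ext i
  exact (RingHom.map_mulVec (IsLocalRing.residue O) (A g) y i).symm

/-- The multiplicity of a character in a permutation character. -/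
lemma classInner_fix_eq {V : Type*} [AddCommGroup V] [Module ℂ V] [FiniteDimensional ℂ V] [Fintype G]
    (ρ : Representation ℂ G V) (H : Subgroup G) :
    classInner ρ.character (fixedPointCharacter H) =
      (finrank ℂ (Representation.invariants (MonoidHom.comp ρ H.subtype)) : ℂ) := by
  classical
  haveI : Fintype H := Fintype.ofFinite _
  have h1 : fixedPointCharacter H = indFun H (fun _ => 1) := by
    funext g
    exact (indFun_one_eq_fix H g).symm
  rw [h1, frobenius_reciprocity' H _ _ (IsCharacter.isClassFunction (isCharacter_character ρ))]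
  exact classInner_restrict_one_eq_finrank ρ H

end Helpers

section Main

variable {F : Type*} [Field F] {D : ChevalleyDatum} {T : Tbl} (hG : T.Good3 D)

local notation "PP" => (hG.toGood2.bn (F := F))

local notation "TT" => Cfsg.Agent.Lib.BN.T (hG.toGood2.bn (F := F))

variable [Fintype F] (p : ℕ) [hpF : Fact p.Prime] [CharP F p] [Fintype ↥(D.group F)]

include hG in
/-- The torus has order prime to the characteristic. -/
lemma not_dvd_card_T : ¬ p ∣ Nat.card TT := by
  intro h
  have hpp : p.Prime := hpF.out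
  obtain ⟨t, ht⟩ := exists_prime_orderOf_dvd_card' p h
  have h1 : t ^ p = 1 := by
    rw [← ht]
    exact pow_orderOf_eq_one t
  have h2 : ((t : ↥(D.group F)) : GL D.Idx F) ∈ diagSub D F :=
    hG.diagonalSubgroup_le (diag_of_mem_T hG t.2)
  obtain ⟨⟨d, hd⟩, _⟩ := h2
  have h3 : ((t : ↥(D.group F)) : GL D.Idx F) ^ p = 1 := by
    have := congrArg (fun z : TT => ((z : ↥(D.group F)) : GL D.Idx F)) h1
    simpa using this
  have hpow : ∀ m : ℕ, (((t : ↥(D.group F)) : GL D.Idx F) ^ m : GL D.Idx F).val = diagM D F (fun s => d s ^ m) := by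
    intro m
    induction m with
    | zero =>
      simp [diagM_one]
    | succ m ih =>
      rw [pow_succ, Units.val_mul, ih, hd, diagM_mul]
      congr 1
      funext s
      rw [pow_succ]
  have h4 := hpow p
  rw [h3, Units.val_one] at h4
  have h5 : ∀ s, s < D.nroots → d s ^ p = 1 := by
    intro s hs
    rw [← diagM_one] at h4
    exact (Tbl.Good2.diagM_inj h4 hs).symm
  have h6 : ∀ s, s < D.nroots → d s = 1 := by
    intro s hs
    have e : d s ^ p = 1 ^ p := by rw [h5 s hs, one_pow]
    exact (frobenius_inj F p) (by simpa [frobenius_def] using e)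
  have h7 : (t : ↥(D.group F)) = 1 := by
    apply Subtype.ext
    apply Units.ext
    show ((t : ↥(D.group F)) : GL D.Idx F).val = 1
    rw [hd, Tbl.Good2.diagM_congr (e := fun _ => 1) h6, diagM_one]
  have h8 : t = 1 := Subtype.ext h7
  rw [h8, orderOf_one] at ht
  exact hpp.one_lt.ne ht

include hG in
/-- The main step: a character of full `p`-part has a component in the Steinberg character. -/
theorem classInner_steinberg_ne {n : ℕ} (σ₀ : Representation ℂ ↥(D.group F) (Fin n → ℂ)) (hσ₀ : σ₀.IsIrreducible)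
    (hn : p ^ (Nat.card ↥(D.group F)).factorization p ∣ n) :
    classInner σ₀.character (D.steinbergCharacter F) ≠ 0 := by
  classical
  have hpp : p.Prime := hpF.out
  obtain ⟨O, hO⟩ := exists_valSub hpp
  obtain ⟨A, σ, hσ, hχ, hM⟩ := exists_integral_form O σ₀ hσ₀
  have hM' : ∀ g, σ g = Matrix.toLin' (Ac A g) := hM
  rw [← hχ]
  obtain ⟨c, hc⟩ := red_orth hpp hO A hσ hM' hn
  have hn0 : 0 < n := by
    have h := finrank_pos_of_irr hσ
    simpa using h
  have hspan := red_span A hc
  have hf := red_proj A hc ⟨0, hn0⟩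
  have hpk : ((p : ℕ) : IsLocalRing.ResidueField O) = 0 := by
    have h1 : ((p : O)) ∈ IsLocalRing.maximalIdeal O := by
      rw [← ValuationSubring.coe_mem_nonunits_iff]
      simpa using hO
    have h2 := (IsLocalRing.residue_eq_zero_iff _).2 h1
    simpa using h2
  have hU := uData (F := F) hG
  have hTn : ∀ t ∈ TT, ∀ u ∈ UG D F, t⁻¹ * u * t ∈ UG D F := by
    intro t ht u hu
    have := hU.normal_B _ (inv_mem (T_le_B ht)) u hu
    rwa [inv_inv] at this
  -- reduction of a fixed vector
  have hred : ∀ (x : Fin n → ℂ) (a : ℂ) (y : Fin n → O), (∀ i, (y i : ℂ) = a * x i) → ∀ g, σ g x = x →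
      rRep A g (fun i => IsLocalRing.residue O (y i)) = fun i => IsLocalRing.residue O (y i) := by
    intro x a y hy g hg
    apply rRep_fix
    have e : (fun i => (y i : ℂ)) = a • x := by
      funext i
      simp [hy i]
    rw [e, Matrix.mulVec_smul]
    congr 1
    rw [hM', Matrix.toLin'_apply] at hg
    exact hg
  -- (A)
  have hA : ∀ i, i < D.rank → ∀ x : Fin n → ℂ, (∀ u ∈ UG D F, σ u x = x) → σ (rS hG.toGood2 i) x = x → x = 0 := by
    intro i hi x hxU hxs
    by_contra hx
    obtain ⟨a, _, y, hy, hy0⟩ := exists_primitive (O := O) x hx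
    refine (chev_yok hG hpk hspan hf (v := fun i => IsLocalRing.residue O (y i)) (fun u hu => hred x a y hy u (hxU u hu)) hy0).1 i hi ?_
    exact hred x a y hy _ hxs
  -- (B)
  have hpU : IsPGroup p (UG D F) := by
    obtain ⟨f, _, hfq⟩ := FiniteField.card F p
    have hqN : Nat.card (UG D F) = p ^ (f * (D.nroots / 2)) := by
      rw [card_UG hG, Nat.card_eq_fintype_card, hfq, pow_mul]
    exact IsPGroup.of_card hqN
  have hB : ∃ x : Fin n → ℂ, x ≠ 0 ∧ ∀ b ∈ (PP).B, σ b x = x := by
    have hx₀ : ∃ x₀ : Fin n → ℂ, x₀ ≠ 0 ∧ ∀ u ∈ UG D F, σ u x₀ = x₀ := by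
      haveI : Fintype (UG D F) := Fintype.ofFinite _
      have h1 := classInner_restrict_one_eq_finrank σ (UG D F)
      have hirr : IsIrrCharacter ↥(D.group F) σ.character := ⟨n, σ, hσ, rfl⟩
      have hdeg : charDegree σ.character = n := by
        have := charDegree_natCast (χ := σ.character) (n := n) (by rw [Representation.char_one]; simp)
        exact this
      have h2 : classInner (fun k : UG D F => σ.character k) (fun _ => 1) = (Nat.card (UG D F) : ℂ)⁻¹ * n := by
        rw [classInner_def]
        simp only [map_one, mul_one]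
        congr 1
        rw [Finset.sum_eq_single 1]
        · simp [Representation.char_one]
        · intro u _ hu
          refine irr_eq_zero_of_full_ppart ⟨σ.character, hirr⟩ p hpp (by rw [hdeg]; exact hn) ?_
          obtain ⟨e, he⟩ := IsPGroup.iff_orderOf.1 hpU u
          rw [Subgroup.orderOf_coe, he]
          refine dvd_pow_self p ?_
          rintro rfl
          rw [pow_zero, orderOf_eq_one_iff] at he
          exact hu he
        · simp
      rw [h2] at h1
      have hne : Representation.invariants (MonoidHom.comp σ (UG D F).subtype) ≠ ⊥ := by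
        intro hbot
        rw [hbot, finrank_bot] at h1
        have h3 : (Nat.card (UG D F) : ℂ) ≠ 0 := by exact_mod_cast (Nat.card_pos (α := UG D F)).ne'
        have h4 : (n : ℂ) ≠ 0 := by exact_mod_cast hn0.ne'
        simp [h3, h4] at h1
      obtain ⟨x₀, hx₀, hx₀0⟩ := Submodule.exists_mem_ne_zero_of_ne_bot hne
      exact ⟨x₀, hx₀0, fun u hu => hx₀ ⟨u, hu⟩⟩
    obtain ⟨x₀, hx₀0, hx₀U⟩ := hx₀
    obtain ⟨a, _, y, hy, hy0⟩ := exists_primitive (O := O) x₀ hx₀0
    have hyU : (fun i => IsLocalRing.residue O (y i)) ∈ fixS (rRep A) (UG D F) := fun u hu => hred x₀ a y hy u (hx₀U u hu)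
    have hyB := (chev_yok hG hpk hspan hf hyU hy0).2
    have hyC : (fun i => (y i : ℂ)) = a • x₀ := by
      funext i
      simp [hy i]
    have hyCU : ∀ u ∈ UG D F, σ u (fun i => (y i : ℂ)) = fun i => (y i : ℂ) := by
      intro u hu
      rw [hyC, map_smul, hx₀U u hu]
    haveI : Fintype TT := Fintype.ofFinite _
    let z : Fin n → O := ∑ t : TT, A t *ᵥ y
    have hzC : (fun i => (z i : ℂ)) = ∑ t : TT, σ t (fun i => (y i : ℂ)) := by
      funext i
      simp only [z, Finset.sum_apply, AddSubmonoidClass.coe_finset_sum]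
      refine Finset.sum_congr rfl fun t _ => ?_
      rw [hM', Matrix.toLin'_apply, Ac_mulVec]
    have hzR : (fun i => IsLocalRing.residue O (z i)) = (Nat.card TT : IsLocalRing.ResidueField O) • fun i => IsLocalRing.residue O (y i) := by
      have e1 : (fun i => IsLocalRing.residue O (z i)) = ∑ t : TT, rRep A t (fun i => IsLocalRing.residue O (y i)) := by
        funext i
        simp only [z, Finset.sum_apply, map_sum]
        refine Finset.sum_congr rfl fun t _ => ?_
        rw [rRep_apply, Ar_mulVec]
      have e2 : ∀ t : TT, rRep A (t : ↥(D.group F)) (fun i => IsLocalRing.residue O (y i)) = fun i => IsLocalRing.residue O (y i) :=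
        fun t => hyB t (T_le_B t.2)
      rw [e1]
      simp only [e2]
      rw [Finset.sum_const, Finset.card_univ, Nat.card_eq_fintype_card, Nat.cast_smul_eq_nsmul]
    have hcard : (Nat.card TT : IsLocalRing.ResidueField O) ≠ 0 := by
      intro h0
      have hcop : Nat.Coprime (Nat.card TT) p :=
        ((Nat.Prime.coprime_iff_not_dvd hpp).2 (not_dvd_card_T hG p)).symm
      have e : ((Nat.gcd (Nat.card TT) p : ℕ) : ℤ) = (Nat.card TT : ℤ) * Nat.gcdA (Nat.card TT) p + (p : ℤ) * Nat.gcdB (Nat.card TT) p :=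
        Nat.gcd_eq_gcd_ab _ _
      rw [hcop] at e
      have e2 := congrArg (fun w : ℤ => (w : IsLocalRing.ResidueField O)) e
      simp only [Nat.cast_one, Int.cast_one, Int.cast_add, Int.cast_mul, Int.cast_natCast, h0, hpk, zero_mul, add_zero] at e2
      exact one_ne_zero e2
    refine ⟨fun i => (z i : ℂ), ?_, ?_⟩
    · intro h0
      have h1 : z = 0 := by
        funext i
        exact Subtype.ext (congrFun h0 i)
      have h2 : (fun i => IsLocalRing.residue O (z i)) = 0 := by
        rw [h1]
        funext i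
        simp
      rw [hzR] at h2
      exact hy0 ((smul_eq_zero.1 h2).resolve_left hcard)
    · intro b hb
      obtain ⟨u, hu, t, ht, rfl⟩ := hU.mul_T b hb
      rw [hzC]
      have e1 : ∀ t₁ : TT, σ (t : ↥(D.group F)) (σ (t₁ : ↥(D.group F)) (fun i => (y i : ℂ))) = σ ((⟨t, ht⟩ * t₁ : TT) : ↥(D.group F)) (fun i => (y i : ℂ)) := by
        intro t₁
        rw [← Module.End.mul_apply, ← map_mul]
        rfl
      have e2 : ∑ t₁ : TT, σ (t : ↥(D.group F)) (σ (t₁ : ↥(D.group F)) (fun i => (y i : ℂ))) = ∑ t₁ : TT, σ (t₁ : ↥(D.group F)) (fun i => (y i : ℂ)) := by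
        simp only [e1]
        exact Fintype.sum_equiv (Equiv.mulLeft (⟨t, ht⟩ : TT)) _ _ (fun _ => rfl)
      have e3 : ∀ t₁ : TT, σ u (σ (t₁ : ↥(D.group F)) (fun i => (y i : ℂ))) = σ (t₁ : ↥(D.group F)) (fun i => (y i : ℂ)) := by
        intro t₁
        have e4 : σ u (σ (t₁ : ↥(D.group F)) (fun i => (y i : ℂ))) = σ (t₁ : ↥(D.group F)) (σ ((t₁ : ↥(D.group F))⁻¹ * u * t₁) (fun i => (y i : ℂ))) := by
          rw [← Module.End.mul_apply, ← Module.End.mul_apply, ← map_mul, ← map_mul]
          congr 2
          group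
        rw [e4, hyCU _ (hTn _ t₁.2 u hu)]
      rw [map_mul, Module.End.mul_apply, map_sum, e2, map_sum]
      exact Finset.sum_congr rfl fun t₁ _ => e3 t₁
  have hinner : ∀ J ∈ (Finset.range D.rank).powerset, J ≠ ∅ →
      classInner σ.character (fixedPointCharacter (D.parabolicIn F J)) = 0 := by
    intro J hJ hJ0
    rw [Finset.mem_powerset] at hJ
    obtain ⟨i, hi⟩ := Finset.nonempty_iff_ne_empty.2 hJ0
    rw [classInner_fix_eq]
    have hbot : Representation.invariants (MonoidHom.comp σ (D.parabolicIn F J).subtype) = ⊥ := by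
      rw [eq_bot_iff]
      intro x hx
      rw [Submodule.mem_bot]
      have hB1 : ∀ b ∈ (PP).B, b ∈ D.parabolicIn F J := by
        intro b hb
        rw [parabolicIn_eq hG hJ]
        exact (le_sup_left : _ ≤ (PP).parabolic _) hb
      have hs1 : rS hG.toGood2 i ∈ D.parabolicIn F J := by
        rw [parabolicIn_eq hG hJ]
        exact (le_sup_right : _ ≤ (PP).parabolic _) (Subgroup.subset_closure ⟨i, hi, rfl⟩)
      exact hA i (Finset.mem_range.1 (hJ hi)) x (fun u hu => hx ⟨u, hB1 u (hU.le_B hu)⟩) (hx ⟨_, hs1⟩)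
    rw [hbot, finrank_bot, Nat.cast_zero]
  have hinner0 : classInner σ.character (fixedPointCharacter (D.parabolicIn F ∅)) ≠ 0 := by
    rw [classInner_fix_eq]
    obtain ⟨x, hx0, hx⟩ := hB
    have hpos : Representation.invariants (MonoidHom.comp σ (D.parabolicIn F ∅).subtype) ≠ ⊥ := by
      intro hbot
      have hmem : x ∈ Representation.invariants (MonoidHom.comp σ (D.parabolicIn F ∅).subtype) := by
        rintro ⟨g, hg⟩
        rw [parabolicIn_eq hG (Finset.empty_subset _)] at hg
        have hg' : g ∈ (PP).B := by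
          have e : (PP).parabolic (rS hG.toGood2 '' ((∅ : Finset ℕ) : Set ℕ)) = (PP).B := by
            simp [BNPair.parabolic]
          rwa [e] at hg
        exact hx g hg'
      rw [hbot, Submodule.mem_bot] at hmem
      exact hx0 hmem
    have h1 : finrank ℂ (Representation.invariants (MonoidHom.comp σ (D.parabolicIn F ∅).subtype)) ≠ 0 := by
      intro h0
      exact hpos (Submodule.finrank_eq_zero.1 h0)
    exact_mod_cast h1
  have hexp : classInner σ.character (D.steinbergCharacter F) =
      ∑ J ∈ (Finset.range D.rank).powerset, (-1 : ℂ) ^ J.card * classInner σ.character (fixedPointCharacter (D.parabolicIn F J)) := by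
    simp only [classInner, ChevalleyDatum.steinbergCharacter, map_sum, map_mul, map_pow, map_neg, map_one, Finset.mul_sum]
    rw [Finset.sum_comm]
    refine Finset.sum_congr rfl fun J _ => Finset.sum_congr rfl fun g _ => ?_
    ring
  rw [hexp, Finset.sum_eq_single ∅]
  · simpa using hinner0
  · intro J hJ hJ0
    rw [hinner J hJ hJ0, mul_zero]
  · intro h
    exact absurd (Finset.empty_mem_powerset _) h

end Main

end Cfsg.Agent.Lib.BNSt
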