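/-
The `p`-blocks of the Chevalley groups in characteristic `p`.
-/
import Cfsg.Agent.Lib.BNSt.BlockCount
import Cfsg.Agent.Lib.BNSt.DefZero
import Cfsg.Agent.Lib.BNSt.BT
import Cfsg.Agent.Lib.BNSt.Cent
import Cfsg.Agent.Lib.BNSt.Order

set_option autoImplicit false

namespace Cfsg.Agent.Lib.BNSt

open Cfsg Cfsg.Lie Cfsg.Agent.Lib.Chev Cfsg.Agent.Lib.Block

section

variable {F : Type*} [Field F] [Fintype F] {D : ChevalleyDatum} {T : Tbl} (hG : T.Good3 D)

include hG in
/-- The centralizer of `U_J` in `P_J`, for a set `J`. -/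
lemma cent_le_set {J : Set ℕ} {k : ℕ} (hk : k < D.rank) (hkJ : k ∉ J) {y : GL D.Idx F}
    (h1 : ∀ u ∈ D.unipotentRadical F J, u * y = y * u) (h2 : y ∈ D.parabolicSubgroup F J) :
    y ∈ D.unipotentRadical F J := by
  classical
  set J' : Finset ℕ := (Finset.range D.rank).filter (· ∈ J) with hJ'
  have hmem : ∀ i, i < D.rank → (i ∈ (J' : Set ℕ) ↔ i ∈ J) := by
    intro i hi
    simp [hJ', hi]
  have eP : D.parabolicSubgroup F J = D.parabolicSubgroup F (J' : Set ℕ) := by
    unfold Cfsg.Lie.ChevalleyDatum.parabolicSubgroup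
    congr 2
    ext g
    constructor
    · rintro ⟨j, h1, h2, h3⟩
      exact ⟨j, (hmem j h2).2 h1, h2, h3⟩
    · rintro ⟨j, h1, h2, h3⟩
      exact ⟨j, (hmem j h2).1 h1, h2, h3⟩
  have eS : ∀ r, D.InRootSub J r ↔ D.InRootSub (J' : Set ℕ) r := by
    intro r
    unfold Cfsg.Lie.ChevalleyDatum.InRootSub
    constructor
    · rintro ⟨h1, h2⟩
      exact ⟨h1, fun i hi hiJ => h2 i hi (fun h => hiJ ((hmem i hi).2 h))⟩
    · rintro ⟨h1, h2⟩
      exact ⟨h1, fun i hi hiJ => h2 i hi (fun h => hiJ ((hmem i hi).1 h))⟩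
  have eU : D.unipotentRadical F J = D.unipotentRadical F (J' : Set ℕ) := by
    unfold Cfsg.Lie.ChevalleyDatum.unipotentRadical
    simp only [eS]
  rw [eU] at h1 ⊢
  rw [eP] at h2
  have hkJ' : k ∉ J' := by
    intro h
    exact hkJ ((hmem k hk).1 h)
  have hJs : J' ⊆ Finset.range D.rank := Finset.filter_subset _ _
  exact centY_le hG hJs hk hkJ' ((mem_centY).2 ⟨h1, h2⟩)

variable (p : ℕ) [hp : Fact p.Prime] [CharP F p]

include hG in
lemma posU_pGroup : IsPGroup p ↥(D.posUnipotent F) := by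
  obtain ⟨n, hpr, hn⟩ := FiniteField.card F p
  refine IsPGroup.of_card (n := n.val * (D.nroots / 2)) ?_
  rw [hG.card_U, Nat.card_eq_fintype_card, hn, pow_mul]

/-- The main statement: the regular elements centralizing a nontrivial radical subgroup are trivial. -/
theorem radical_cent (hD : D ∈ [chevG2, chevB2, chevD4, chevF4, chevE6, chevE7, chevE8])
    (D₀ : Subgroup ↥(D.group F)) (hD₀ : IsPGroup p D₀) (hne : D₀ ≠ ⊥)
    (hrad : ∀ Q : Subgroup (Subgroup.normalizer (D₀ : Set ↥(D.group F))), Q.Normal → IsPGroup p Q →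
      Q ≤ D₀.subgroupOf (Subgroup.normalizer (D₀ : Set ↥(D.group F))))
    (x : ↥(D.group F)) (hx : x ∈ Subgroup.centralizer (D₀ : Set ↥(D.group F))) (hreg : ¬ p ∣ orderOf x) : x = 1 := by
  classical
  have hpp : p.Prime := hp.out
  obtain ⟨T, hG⟩ := exists_good3 hD
  set R : Subgroup (GL D.Idx F) := D₀.map (D.group F).subtype with hR
  have hRG : R ≤ D.group F := Subgroup.map_subtype_le _
  have hRp : IsPGroup p ↥R := hD₀.map _
  have hRne : R ≠ ⊥ := by
    intro h
    apply hne
    rwa [hR, Subgroup.map_eq_bot_iff_of_injective _ (Subgroup.subtype_injective _)] at h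
  obtain ⟨g, hgG, J, ⟨k, hk, hkJ⟩, hN, hRU⟩ := borel_tits p hD hRG hRp hRne
  have hsub : D.unipotentRadical F J ≤ D.posUnipotent F := by
    refine (Subgroup.closure_le _).2 ?_
    rintro g ⟨r, t, hr, _, hg⟩
    exact Subgroup.subset_closure ⟨r, t, hr, hg⟩
  have hUG : D.posUnipotent F ≤ D.group F := (Tbl.Good2.le_borel_U).trans hG.B_le_group
  set W : Subgroup (GL D.Idx F) := (D.unipotentRadical F J).map (MulAut.conj g).toMonoidHom with hW
  have hmemW : ∀ {u : GL D.Idx F}, u ∈ W ↔ g⁻¹ * u * g ∈ D.unipotentRadical F J := by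
    intro u
    constructor
    · rintro ⟨v, hv, rfl⟩
      have e : g⁻¹ * (MulAut.conj g).toMonoidHom v * g = v := by
        simp only [MulEquiv.toMonoidHom_eq_coe, MonoidHom.coe_coe, MulAut.conj_apply]
        group
      rwa [e]
    · intro h
      refine ⟨_, h, ?_⟩
      simp only [MulEquiv.toMonoidHom_eq_coe, MonoidHom.coe_coe, MulAut.conj_apply]
      group
  have hWG : W ≤ D.group F := by
    intro u hu
    have h1 := hUG (hsub (hmemW.1 hu))
    have e : u = g * (g⁻¹ * u * g) * g⁻¹ := by group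
    rw [e]
    exact mul_mem (mul_mem hgG h1) (inv_mem hgG)
  have hWp : IsPGroup p ↥W := by
    have h1 : IsPGroup p ↥(D.unipotentRadical F J) :=
      (posU_pGroup hG p).to_le hsub
    exact h1.map _
  set WG : Subgroup ↥(D.group F) := W.subgroupOf (D.group F) with hWGdef
  have hWGp : IsPGroup p ↥WG := hWp.comap_of_injective _ (Subgroup.subtype_injective _)
  have hD₀W : D₀ ≤ WG := by
    intro d hd
    exact Subgroup.mem_subgroupOf.2 (hRU ⟨d, hd, rfl⟩)
  -- the normalizer of `D₀` normalizes `W`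
  have hNorm : ∀ n : ↥(D.group F), n ∈ Subgroup.normalizer (D₀ : Set ↥(D.group F)) → ∀ w ∈ WG, n * w * n⁻¹ ∈ WG := by
    intro n hn w hw
    have h1 : (n : GL D.Idx F) ∈ Subgroup.normalizer (R : Set (GL D.Idx F)) ⊓ D.group F := by
      refine Subgroup.mem_inf.2 ⟨Subgroup.mem_normalizer_iff.2 ?_, n.2⟩
      intro r
      constructor
      · rintro ⟨d, hd, rfl⟩
        exact ⟨n * d * n⁻¹, (Subgroup.mem_normalizer_iff.1 hn d).1 hd, rfl⟩
      · rintro ⟨d, hd, hd'⟩
        have e : r = ((n⁻¹ * d * n : ↥(D.group F)) : GL D.Idx F) := by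
          have e2 : (n : GL D.Idx F) * r * (n : GL D.Idx F)⁻¹ = (d : GL D.Idx F) := hd'.symm
          push_cast
          rw [← e2]
          group
        rw [e]
        refine ⟨n⁻¹ * d * n, (Subgroup.mem_normalizer_iff.1 hn _).2 ?_, rfl⟩
        have e3 : n * (n⁻¹ * d * n) * n⁻¹ = d := by group
        rw [e3]
        exact hd
    obtain ⟨y, hy, hyn⟩ := hN h1
    have hyN := hG.parabolic_le_normalizer (F := F) J hy
    have hw' : (w : GL D.Idx F) ∈ W := Subgroup.mem_subgroupOf.1 hw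
    have hwU := hmemW.1 hw'
    have hn' : (n : GL D.Idx F) = g * y * g⁻¹ := by
      rw [← hyn]
      rfl
    refine Subgroup.mem_subgroupOf.2 (hmemW.2 ?_)
    have e : g⁻¹ * ((n * w * n⁻¹ : ↥(D.group F)) : GL D.Idx F) * g = y * (g⁻¹ * (w : GL D.Idx F) * g) * y⁻¹ := by
      push_cast
      rw [hn']
      group
    rw [e]
    exact (Subgroup.mem_normalizer_iff.1 hyN _).1 hwU
  -- `W ∩ N(D₀)` lies in `D₀`
  have hWN : ∀ w ∈ WG, w ∈ Subgroup.normalizer (D₀ : Set ↥(D.group F)) → w ∈ D₀ := by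
    intro w hw hwN
    set N := Subgroup.normalizer (D₀ : Set ↥(D.group F)) with hNdef
    have hQn : (WG.subgroupOf N).Normal := by
      constructor
      intro a ha b
      exact Subgroup.mem_subgroupOf.2 (hNorm b.1 b.2 a.1 (Subgroup.mem_subgroupOf.1 ha))
    have hQp : IsPGroup p ↥(WG.subgroupOf N) := hWGp.comap_of_injective _ (Subgroup.subtype_injective _)
    have h1 := hrad _ hQn hQp (Subgroup.mem_subgroupOf.2 hw : (⟨w, hwN⟩ : N) ∈ WG.subgroupOf N)
    exact Subgroup.mem_subgroupOf.1 h1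
  -- hence `D₀ = W`
  have hWD : WG ≤ D₀ := by
    haveI : Group.IsNilpotent ↥WG := hWGp.isNilpotent
    by_contra hcon
    have hlt : D₀.subgroupOf WG < ⊤ := by
      rw [lt_top_iff_ne_top]
      intro h
      apply hcon
      intro w hw
      have h2 : (⟨w, hw⟩ : WG) ∈ D₀.subgroupOf WG := by
        rw [h]
        trivial
      exact Subgroup.mem_subgroupOf.1 h2
    have hnc := Group.normalizerCondition_of_isNilpotent (G := ↥WG) _ hlt
    obtain ⟨w, hw1, hw2⟩ := SetLike.exists_of_lt hnc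
    refine hw2 (Subgroup.mem_subgroupOf.2 (hWN _ w.2 ?_))
    rw [Subgroup.mem_normalizer_iff]
    intro d
    constructor
    · intro hd
      have hd' : (⟨d, hD₀W hd⟩ : WG) ∈ D₀.subgroupOf WG := Subgroup.mem_subgroupOf.2 hd
      have h3 := (Subgroup.mem_normalizer_iff.1 hw1 _).1 hd'
      exact Subgroup.mem_subgroupOf.1 h3
    · intro hd
      have hdW : d ∈ WG := by
        have h3 : (w : ↥(D.group F)) * d * (w : ↥(D.group F))⁻¹ ∈ WG := hD₀W hd
        have e : d = (w : ↥(D.group F))⁻¹ * ((w : ↥(D.group F)) * d * (w : ↥(D.group F))⁻¹) * w := by group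
        rw [e]
        exact mul_mem (mul_mem (inv_mem w.2) h3) w.2
      have hd' : (⟨d, hdW⟩ : WG) ∈ D₀.subgroupOf WG := by
        refine (Subgroup.mem_normalizer_iff.1 hw1 _).2 ?_
        exact Subgroup.mem_subgroupOf.2 hd
      exact Subgroup.mem_subgroupOf.1 hd'
  -- the element `x`
  have hxN : (x : GL D.Idx F) ∈ Subgroup.normalizer (R : Set (GL D.Idx F)) ⊓ D.group F := by
    refine Subgroup.mem_inf.2 ⟨Subgroup.mem_normalizer_iff.2 ?_, x.2⟩
    intro r
    have hcomm : ∀ d ∈ D₀, ((x : GL D.Idx F)) * (d : GL D.Idx F) * (x : GL D.Idx F)⁻¹ = d := by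
      intro d hd
      have h1 := Subgroup.mem_centralizer_iff.1 hx d hd
      have h2 := congrArg Subtype.val h1
      push_cast at h2
      rw [← h2]
      group
    constructor
    · rintro ⟨d, hd, rfl⟩
      refine ⟨d, hd, ?_⟩
      exact (hcomm d hd).symm
    · rintro ⟨d, hd, hd'⟩
      have e2 : (x : GL D.Idx F) * r * (x : GL D.Idx F)⁻¹ = (d : GL D.Idx F) := hd'.symm
      have e3 := hcomm d hd
      have e4 : r = (d : GL D.Idx F) := by
        have h5 : (x : GL D.Idx F) * r * (x : GL D.Idx F)⁻¹ = (x : GL D.Idx F) * (d : GL D.Idx F) * (x : GL D.Idx F)⁻¹ := by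
          rw [e2, e3]
        exact mul_left_cancel (mul_right_cancel h5)
      rw [e4]
      exact ⟨d, hd, rfl⟩
  obtain ⟨y, hy, hyn⟩ := hN hxN
  have hx' : (x : GL D.Idx F) = g * y * g⁻¹ := by
    rw [← hyn]
    rfl
  have hyC : ∀ u ∈ D.unipotentRadical F J, u * y = y * u := by
    intro u hu
    have h1 : g * u * g⁻¹ ∈ W := hmemW.2 (by
      have e : g⁻¹ * (g * u * g⁻¹) * g = u := by group
      rwa [e])
    have h2 : (⟨g * u * g⁻¹, hWG h1⟩ : ↥(D.group F)) ∈ D₀ := hWD (Subgroup.mem_subgroupOf.2 h1)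
    have h3 := Subgroup.mem_centralizer_iff.1 hx _ h2
    have h4 := congrArg Subtype.val h3
    push_cast at h4
    rw [hx'] at h4
    have h5 : g * (u * y) * g⁻¹ = g * (y * u) * g⁻¹ := by
      calc g * (u * y) * g⁻¹ = g * u * g⁻¹ * (g * y * g⁻¹) := by group
        _ = g * y * g⁻¹ * (g * u * g⁻¹) := h4
        _ = _ := by group
    exact mul_left_cancel (mul_right_cancel h5)
  have hyU := cent_le_set hG hk hkJ hyC hy
  obtain ⟨m, hm⟩ := (posU_pGroup hG p) ⟨y, hsub hyU⟩
  have hy1 : y ^ p ^ m = 1 := congrArg Subtype.val hm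
  have hx1 : (x : GL D.Idx F) ^ p ^ m = 1 := by
    rw [hx', conj_pow, hy1]
    group
  have hx2 : x ^ p ^ m = 1 := by
    apply Subtype.ext
    push_cast
    exact hx1
  have h6 : orderOf x ∣ p ^ m := orderOf_dvd_of_pow_eq_one hx2
  obtain ⟨e, _, he⟩ := (Nat.dvd_prime_pow hpp).1 h6
  have he0 : e = 0 := by
    by_contra h7
    apply hreg
    rw [he]
    exact dvd_pow_self p h7
  have h8 : orderOf x = 1 := by
    rw [he, he0, pow_zero]
  exact orderOf_eq_one_iff.1 h8

/-- **The number of `p`-blocks** of a Chevalley group in characteristic `p`. -/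
theorem card_blocks_chev (hD : D ∈ [chevG2, chevB2, chevD4, chevF4, chevE6, chevE7, chevE8])
    (M : Ideal AlgInt) (hM : IsPModular p M) :
    Nat.card {B : Set (IrrCharacter ↥(D.group F)) // IsPBlock M B} = 2 := by
  classical
  have hpp : p.Prime := hp.out
  obtain ⟨T, hG⟩ := exists_good3 hD
  haveI : Fintype ↥(D.group F) := Fintype.ofFinite _
  -- the Sylow subgroup
  obtain ⟨f, _, hf⟩ := FiniteField.card F p
  have hle : D.posUnipotent F ≤ D.group F := (Tbl.Good2.le_borel_U).trans hG.B_le_group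
  have hqN : Nat.card (UG D F) = p ^ (f * (D.nroots / 2)) := by
    have h1 : Nat.card (UG D F) = Nat.card (D.posUnipotent F) := Nat.card_congr (Subgroup.subgroupOfEquivOfLe hle).toEquiv
    rw [h1, hG.card_U, Nat.card_eq_fintype_card, hf, pow_mul]
  have hGne : Nat.card ↥(D.group F) ≠ 0 := Nat.card_pos.ne'
  have hfull : Nat.card (UG D F) = p ^ (Nat.card ↥(D.group F)).factorization p := by
    rw [hqN]
    congr 1
    apply le_antisymm
    · apply (hpp.pow_dvd_iff_le_factorization hGne).1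
      rw [← hqN]
      exact Subgroup.card_subgroup_dvd_card _
    · have h := ppart_dvd (F := F) p hD
      rw [hf, ← pow_mul] at h
      exact (Nat.pow_dvd_pow_iff_le_right hpp.one_lt).1 h
  let U : Sylow p ↥(D.group F) := Sylow.ofCard (UG D F) hfull
  have hUc : (U : Subgroup ↥(D.group F)) = UG D F := Sylow.coe_ofCard _ hfull
  have hN0 : 0 < D.nroots / 2 := by
    simp only [List.mem_cons, List.not_mem_nil, or_false] at hD
    rcases hD with rfl | rfl | rfl | rfl | rfl | rfl | rfl <;> decide +kernel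
  have hU : (U : Subgroup ↥(D.group F)) ≠ ⊥ := by
    intro h
    rw [hUc] at h
    have h1 : Nat.card (UG D F) = 1 := by
      rw [h]
      exact Subgroup.card_bot
    rw [hqN] at h1
    have h2 := Nat.pow_eq_one.1 h1
    rcases h2 with h2 | h2
    · exact hpp.one_lt.ne' h2
    · have : 0 < f.val := f.2
      have h3 := Nat.mul_eq_zero.1 h2
      omega
  -- the Steinberg character
  have hSti : IsIrrCharacter ↥(D.group F) (D.steinbergCharacter F) := by
    rw [steinberg_eq hG]
    exact stB_irr (isGens_rS hG.toGood2)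
  let St : IrrCharacter ↥(D.group F) := ⟨_, hSti⟩
  have hSt1 : p ^ (Nat.card ↥(D.group F)).factorization p ∣ charDegree ((St : IrrCharacter ↥(D.group F)) : ↥(D.group F) → ℂ) := by
    have h1 : charDegree ((St : IrrCharacter ↥(D.group F)) : ↥(D.group F) → ℂ) = Fintype.card F ^ (D.nroots / 2) := by
      apply Cfsg.Agent.Lib.Char.charDegree_natCast
      show D.steinbergCharacter F 1 = _
      rw [steinberg_one hG, Nat.card_eq_fintype_card]
      push_cast
      rfl
    rw [h1]
    exact ppart_dvd (F := F) p hD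
  have hSt : ∀ χ : IrrCharacter ↥(D.group F), p ^ (Nat.card ↥(D.group F)).factorization p ∣ charDegree (χ : ↥(D.group F) → ℂ) → χ = St := by
    rintro ⟨χ, hχ⟩ hd
    apply Subtype.ext
    show χ = D.steinbergCharacter F
    by_contra hne
    obtain ⟨n, σ, hσ, rfl⟩ := hχ
    have hn : charDegree σ.character = n := by
      apply Cfsg.Agent.Lib.Char.charDegree_natCast
      rw [Representation.char_one]
      simp
    rw [hn] at hd
    have h0 := Cfsg.Agent.Lib.Char.classInner_irr_of_ne ⟨_, σ, hσ, rfl⟩ hSti hne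
    exact classInner_steinberg_ne hG p σ hσ hd h0
  have hR₁ := fun (D₀ : Subgroup ↥(D.group F)) (h1 : IsPGroup p D₀) (h2 : D₀ ≠ ⊥) h3 x h4 h5 =>
    radical_cent (F := F) p hD D₀ h1 h2 h3 x h4 h5
  have hcount := card_blocks_eq hM U hU hSt hSt1 (fun D₀ h1 h2 h3 x h4 h5 => by
    rw [hR₁ D₀ h1 h2 h3 x h4 h5]
    exact Subgroup.one_mem _)
  rw [hcount]
  have huniq : Nat.card {z : ↥(D.group F) // z ∈ Subgroup.center ↥(D.group F) ∧ ¬ p ∣ orderOf z} = 1 := by
    rw [Nat.card_eq_one_iff_unique]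
    refine ⟨⟨?_⟩, ⟨⟨1, Subgroup.one_mem _, by simpa using hpp.one_lt.ne'⟩⟩⟩
    have key : ∀ z : {z : ↥(D.group F) // z ∈ Subgroup.center ↥(D.group F) ∧ ¬ p ∣ orderOf z}, z.1 = 1 := by
      rintro ⟨z, hz1, hz2⟩
      refine hR₁ _ U.isPGroup' hU (fun Q hQn hQp => ?_) z ?_ hz2
      · have h3 := hQp.le_sylow_of_normal (U.subtype (Subgroup.le_normalizer))
        rwa [Sylow.coe_subtype] at h3
      · rw [Subgroup.mem_centralizer_iff]
        intro u _
        exact Subgroup.mem_center_iff.1 hz1 u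
    intro a b
    exact Subtype.ext ((key a).trans (key b).symm)
  rw [huniq]

end

end Cfsg.Agent.Lib.BNSt
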