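/-
Kilmoyer's lemma on the intersection of a parabolic subgroup with its conjugate in terms of double coset representatives,
and the longest of the minimal coset representatives.
-/
import Cfsg.Agent.Lib.BNSt.Cox

set_option autoImplicit false

namespace Cfsg.Agent.Lib.BNSt

namespace CoxLen

variable {W : Type*} [Group W] (X : CoxLen W)

/-- An element of `⟨J⟩` of length one lies in `J`. -/
lemma mem_of_len_one {J : Set W} (hJ : J ⊆ X.S) {v : W} (hv : v ∈ Subgroup.closure J) (h : X.len v = 1) : v ∈ J := by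
  obtain ⟨r, hr, rfl, e⟩ := X.exists_word_closure hJ hv
  rw [h] at e
  obtain ⟨x, rfl⟩ := List.length_eq_one_iff.1 e
  simpa using hr x (by simp)

/-- Kilmoyer's lemma. -/
theorem kilmoyer {J K : Set W} (hJ : J ⊆ X.S) (hK : K ⊆ X.S) {d : W} (hl : X.RedL J d) (hr : X.RedR K d) :
    ∀ (n : ℕ) (v y : W), v ∈ Subgroup.closure J → y ∈ Subgroup.closure K → X.len v = n → v * d = d * y →
      v ∈ Subgroup.closure {j | j ∈ J ∧ d⁻¹ * j * d ∈ K} ∧ y ∈ Subgroup.closure {k | k ∈ K ∧ d * k * d⁻¹ ∈ J} := by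
  intro n
  induction n with
  | zero =>
    intro v y _ hy h e
    have hv1 : v = 1 := (X.len_eq_zero v).1 h
    subst hv1
    have hy1 : y = 1 := by
      have e2 : d * 1 = d * y := by rw [mul_one]; simpa using e
      exact (mul_left_cancel e2).symm
    subst hy1
    exact ⟨one_mem _, one_mem _⟩
  | succ n ih =>
    intro v y hv hy h e
    have hne : v ≠ 1 := by
      rintro rfl
      rw [X.len_one] at h
      omega
    obtain ⟨j, hj, v₂, hv₂, rfl, hlen⟩ := X.exists_first hJ hv hne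
    have hjS := hJ hj
    have h1 := X.len_mul_of_redL hJ hl hv
    have h2 := X.len_mul_of_redR hK hr hy
    have h3 := X.len_mul_of_redL hJ hl hv₂
    have e1 : j * (d * y) = v₂ * d := by
      rw [← e, mul_assoc j v₂ d, ← mul_assoc j j, X.sq j hjS, one_mul]
    rw [← e] at h2
    obtain ⟨y', hy', h4, h5⟩ := X.exch_mul hK (a := d) (b := y) (s := j) hy (by rw [← e]; exact h2) hjS
      (by rw [e1, ← e, h1, h3]; omega) (hl j hj)
    have e2 : v₂ * d = d * y' := by rw [← e1, h5]
    have hy't : y' * y⁻¹ ∈ Subgroup.closure K := mul_mem hy' (inv_mem hy)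
    have e3 : j * d = d * (y' * y⁻¹) := by
      have : j * d = j * (d * y) * y⁻¹ := by group
      rw [this, h5]
      group
    have h6 := X.len_mul_of_redR hK hr hy't
    have h7 : X.len (j * d) = X.len d + 1 := by
      have := X.step j hjS d
      have := hl j hj
      omega
    rw [← e3, h7] at h6
    have ht : y' * y⁻¹ ∈ K := X.mem_of_len_one hK hy't (by omega)
    have hjm : d⁻¹ * j * d ∈ K := by
      have : d⁻¹ * j * d = y' * y⁻¹ := by
        rw [mul_assoc, e3]
        group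
      rw [this]
      exact ht
    have htm : d * (y' * y⁻¹) * d⁻¹ ∈ J := by
      have : d * (y' * y⁻¹) * d⁻¹ = j := by
        rw [← e3]
        group
      rw [this]
      exact hj
    obtain ⟨h8, h9⟩ := ih v₂ y' hv₂ hy' (by omega) e2
    refine ⟨mul_mem (Subgroup.subset_closure ⟨hj, hjm⟩) h8, ?_⟩
    have e4 : y = (y' * y⁻¹)⁻¹ * y' := by group
    rw [e4]
    exact mul_mem (inv_mem (Subgroup.subset_closure ⟨ht, htm⟩)) h9

lemma exists_redL {J : Set W} (hJ : J ⊆ X.S) (w : W) : ∃ u ∈ Subgroup.closure J, X.RedL J (u * w) := by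
  obtain ⟨u, hu, h⟩ := X.exists_redR hJ w⁻¹
  refine ⟨u⁻¹, inv_mem hu, ?_⟩
  have e : u⁻¹ * w = (w⁻¹ * u)⁻¹ := by group
  rw [e]
  exact (redL_inv hJ).2 h

lemma top_inv_top {J : Set W} (hJ : J ⊆ X.S) {a : W} (ha : X.IsTop J a) : X.IsTop J a⁻¹ := by
  refine ⟨inv_mem ha.1, fun j hj => ?_⟩
  have e : j * a⁻¹ = (a * j)⁻¹ := by rw [mul_inv_rev, X.inv_S (hJ hj)]
  rw [e, X.len_inv, X.len_inv]
  exact X.top_right hJ ha hj

lemma top_inv {J : Set W} (hJ : J ⊆ X.S) {a : W} (ha : X.IsTop J a) : a⁻¹ = a :=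
  X.top_unique hJ (X.top_inv_top hJ ha) ha

lemma top_suffix {J : Set W} (hJ : J ⊆ X.S) {a v : W} (ha : X.IsTop J a) (hv : v ∈ Subgroup.closure J) :
    X.len (a * v) + X.len v = X.len a := by
  have h := (X.top_prefix hJ (X.top_inv_top hJ ha) _ v hv rfl).2
  have e : v⁻¹ * a⁻¹ = (a * v)⁻¹ := by group
  rw [e, X.len_inv, X.len_inv] at h
  exact h

/-- Conjugation by a top element permutes the generators. -/
lemma top_conj {J : Set W} (hJ : J ⊆ X.S) {a j : W} (ha : X.IsTop J a) (hj : j ∈ J) : a⁻¹ * j * a ∈ J := by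
  have hmem : a⁻¹ * j * a ∈ Subgroup.closure J :=
    mul_mem (mul_mem (inv_mem ha.1) (Subgroup.subset_closure hj)) ha.1
  apply X.mem_of_len_one hJ hmem
  have h := X.top_suffix hJ ha hmem
  have e : a * (a⁻¹ * j * a) = j * a := by group
  rw [e] at h
  have h1 := ha.2 j hj
  have h2 := X.step j (hJ hj) a
  omega

section dmax

variable {J : Set W} (hJ : J ⊆ X.S) {a t : W} (ha : X.IsTop J a) (ht : X.IsTop X.S t)

include hJ ha ht

lemma dmax_len : X.len t = X.len a + X.len (a⁻¹ * t) := by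
  have h := (X.top_prefix (J := X.S) subset_rfl ht _ a (X.closure_S a) rfl).2
  omega

lemma dmax_redL : X.RedL J (a⁻¹ * t) := by
  intro j hj
  have hjS := hJ hj
  have h1 := (X.top_prefix (J := X.S) subset_rfl ht _ (a * j) (X.closure_S _) rfl).2
  have e : (a * j)⁻¹ * t = j * (a⁻¹ * t) := by
    rw [mul_inv_rev, X.inv_S hjS, mul_assoc]
  rw [e] at h1
  have h2 := X.top_right hJ ha hj
  have h3 := X.step_r hjS a
  have h4 := X.dmax_len hJ ha ht
  omega

lemma dmax_asc {s : W} (hs : s ∈ X.S) (h : X.len (a⁻¹ * t) < X.len (a⁻¹ * t * s)) :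
    a⁻¹ * t * s * (a⁻¹ * t)⁻¹ ∈ J := by
  set d := a⁻¹ * t with hd
  have e0 : a * d = t := by rw [hd]; group
  have hlen : X.len (a * d) = X.len a + X.len d := by
    rw [e0]
    exact X.dmax_len hJ ha ht
  have hlt : X.len (a * d * s) < X.len (a * d) := by
    rw [e0]
    exact X.top_right (J := X.S) subset_rfl ht hs
  obtain ⟨a', ha', h1, h2⟩ := X.exch_mul_r hJ (a := a) (b := d) (s := s) ha.1 hlen hs hlt h
  have hL : X.RedL J d := X.dmax_redL hJ ha ht
  have hv : a⁻¹ * a' ∈ Subgroup.closure J := mul_mem (inv_mem ha.1) ha'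
  have e1 : d * s = (a⁻¹ * a') * d := by
    have : d * s = a⁻¹ * (a * d * s) := by group
    rw [this, h2]
    group
  have h3 := X.len_mul_of_redL hJ hL hv
  rw [← e1] at h3
  have h4 := X.step_r hs d
  have e2 : d * s * d⁻¹ = a⁻¹ * a' := by
    rw [e1]
    group
  rw [e2]
  exact X.mem_of_len_one hJ hv (by omega)

lemma dmax_conj {j : W} (hj : j ∈ J) : (a⁻¹ * t)⁻¹ * j * (a⁻¹ * t) ∈ X.S := by
  have h1 := X.top_conj hJ (X.top_inv_top hJ ha) hj
  rw [inv_inv] at h1
  have h2 := X.top_conj (J := X.S) subset_rfl ht (hJ h1)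
  have e : (a⁻¹ * t)⁻¹ * j * (a⁻¹ * t) = t⁻¹ * (a * j * a⁻¹) * t := by group
  rw [e]
  exact h2

lemma dmax_unique {d : W} (hd : X.RedL J d) (h : ∀ s ∈ X.S, X.len d < X.len (d * s) → d * s * d⁻¹ ∈ J) :
    d = a⁻¹ * t := by
  have htop : X.IsTop X.S (a * d) := by
    refine X.top_of_right subset_rfl (X.closure_S _) fun s hs => ?_
    have h1 := X.len_mul_of_redL hJ hd ha.1
    rcases X.step_r hs d with h2 | h2
    · have hj := h s hs (by omega)
      have e : a * d * s = a * (d * s * d⁻¹) * d := by group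
      rw [e]
      have hmem : a * (d * s * d⁻¹) ∈ Subgroup.closure J := mul_mem ha.1 (Subgroup.subset_closure hj)
      have h3 := X.len_mul_of_redL hJ hd hmem
      have h4 := X.top_right hJ ha hj
      omega
    · have h3 := X.len_mul_le a (d * s)
      rw [← mul_assoc] at h3
      omega
  have e := X.top_unique (J := X.S) subset_rfl htop ht
  rw [← e]
  group

end dmax

end CoxLen

end Cfsg.Agent.Lib.BNSt
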