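/-
(B,N)-pairs: the `P_J`-orbits on the cosets of `P_K`, and the value of the alternating sum of the parabolic
permutation characters at an element of `P_J` with `J` minimal.
-/
import Cfsg.Agent.Lib.BNSt.Pelt
import Cfsg.Agent.Lib.BNSt.Kil

set_option autoImplicit false

namespace Cfsg.Agent.Lib.BNSt

open Cfsg Cfsg.Agent.Lib.BN

variable {G : Type*} [Group G] {P : BNPair G} {ι : Type*} {r : ι → G}

/-- A chosen representative of an element of the Weyl group. -/
noncomputable def rp (w : WG P) : G := ((Quotient.out w : P.N) : G)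

lemma rp_mem (w : WG P) : rp w ∈ P.N := ws_mem_N w

lemma ws_rp (w : WG P) : ws P (rp w) = w := ws_out w

lemma lbl_rp (w : WG P) : lbl P (rp w) = w := by rw [lbl_ws (rp_mem w), ws_rp]

lemma lbl_par_rp {J : Set G} (hJ : J ⊆ P.S) {d : WG P} (hd : (coxLen P).RedL (wJ J) d) {c : G}
    (hc : c ∈ P.parabolic J) : lbl P (c * rp d) = lbl P c * d := by
  have h := (coxLen P).len_mul_of_redL (wJ_subset hJ) hd ((mem_parabolic_iff_lbl hJ).1 hc)
  rw [lbl_mul_add (by rw [lbl_rp]; exact h), lbl_rp]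

lemma lbl_rp_par {K : Set G} (hK : K ⊆ P.S) {d : WG P} (hd : (coxLen P).RedR (wJ K) d) {q : G}
    (hq : q ∈ P.parabolic K) : lbl P (rp d * q) = d * lbl P q := by
  have h := (coxLen P).len_mul_of_redR (wJ_subset hK) hd ((mem_parabolic_iff_lbl hK).1 hq)
  rw [lbl_mul_add (by rw [lbl_rp]; exact h), lbl_rp]

/-- Kilmoyer's lemma for the parabolic subgroups. -/
theorem kil_lbl {J K : Set G} (hJ : J ⊆ P.S) (hK : K ⊆ P.S) {d : WG P} (hl : (coxLen P).RedL (wJ J) d)
    (hr : (coxLen P).RedR (wJ K) d) {c q : G} (hc : c ∈ P.parabolic J) (hq : q ∈ P.parabolic K)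
    (e : c * rp d = rp d * q) :
    lbl P c ∈ Subgroup.closure {j | j ∈ wJ (P := P) J ∧ d⁻¹ * j * d ∈ wJ (P := P) K} ∧
      lbl P q ∈ Subgroup.closure {k | k ∈ wJ (P := P) K ∧ d * k * d⁻¹ ∈ wJ (P := P) J} ∧
      lbl P c * d = d * lbl P q := by
  have e1 : lbl P c * d = d * lbl P q := by
    rw [← lbl_par_rp hJ hl hc, ← lbl_rp_par hK hr hq, e]
  obtain ⟨h1, h2⟩ := (coxLen P).kilmoyer (wJ_subset hJ) (wJ_subset hK) hl hr _ _ _
    ((mem_parabolic_iff_lbl hJ).1 hc) ((mem_parabolic_iff_lbl hK).1 hq) rfl e1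
  exact ⟨h1, h2, e1⟩

section Orb

variable (P r) in
/-- The orbit of the point `rp d • P_K` under `P_J`. -/
def IsO (J K : Finset ι) (d : WG P) (x : G ⧸ PJ P r K) : Prop :=
  ∃ c ∈ PJ P r J, x = QuotientGroup.mk (c * rp d)

variable {A : Finset ι}

lemma isO_smul {J K : Finset ι} {d : WG P} {x : G ⧸ PJ P r K} (hx : IsO P r J K d x) {c : G} (hc : c ∈ PJ P r J) :
    IsO P r J K d (c • x) := by
  obtain ⟨c', hc', rfl⟩ := hx
  refine ⟨c * c', mul_mem hc hc', ?_⟩
  rw [MulAction.Quotient.smul_mk, smul_eq_mul, mul_assoc]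

/-- Existence of the double coset representative of a coset. -/
theorem exists_isO {J K : Finset ι} (hJ : ∀ i ∈ J, r i ∈ P.S) (hK : ∀ i ∈ K, r i ∈ P.S) (x : G ⧸ PJ P r K) :
    ∃ d : WG P, (coxLen P).RedL (wJ (r '' (J : Set ι))) d ∧ (coxLen P).RedR (wJ (r '' (K : Set ι))) d ∧
      IsO P r J K d x := by
  classical
  obtain ⟨g, rfl⟩ := QuotientGroup.mk_surjective x
  have hne : ∃ n, ∃ c ∈ PJ P r J, ∃ q ∈ PJ P r K, wlen P (lbl P (c * g * q)) = n :=
    ⟨_, 1, one_mem _, 1, one_mem _, rfl⟩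
  obtain ⟨c, hc, q, hq, e⟩ := Nat.find_spec hne
  have hmin : ∀ c' ∈ PJ P r J, ∀ q' ∈ PJ P r K, wlen P (lbl P (c * g * q)) ≤ wlen P (lbl P (c' * g * q')) := by
    intro c' hc' q' hq'
    rw [e]
    exact Nat.find_min' hne ⟨c', hc', q', hq', rfl⟩
  set g' := c * g * q with hg'
  have hJs := wJ_sub hJ
  have hKs := wJ_sub hK
  refine ⟨lbl P g', ?_, ?_, ?_⟩
  · rintro _ ⟨s, hs, rfl⟩
    have hsS := hJs hs
    rcases (coxLen P).step (ws P s) ⟨s, hsS, rfl⟩ (lbl P g') with h | h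
    · change wlen P _ = wlen P _ + 1 at h
      change wlen P _ < wlen P _
      omega
    · exfalso
      change wlen P _ + 1 = wlen P _ at h
      have e0 : lbl P g' = ws P s * (ws P s * lbl P g') := by
        rw [← mul_assoc, ws_sq hsS, one_mul]
      obtain ⟨g₁, g₂, e1, e2, e3⟩ := exists_factor e0
      have hg₁ : g₁ ∈ PJ P r J := by
        refine (mem_parabolic_iff_lbl hJs).2 ?_
        rw [e2]
        exact Subgroup.subset_closure ⟨s, hs, rfl⟩
      have h1 := hmin (g₁⁻¹ * c) (mul_mem (inv_mem hg₁) hc) q hq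
      have e4 : g₁⁻¹ * c * g * q = g₂ := by
        have : g₁⁻¹ * c * g * q = g₁⁻¹ * g' := by rw [hg']; group
        rw [this, e1]
        group
      rw [e4, e3] at h1
      omega
  · rintro _ ⟨s, hs, rfl⟩
    have hsS := hKs hs
    rcases (coxLen P).step_r (s := ws P s) ⟨s, hsS, rfl⟩ (lbl P g') with h | h
    · change wlen P _ = wlen P _ + 1 at h
      change wlen P _ < wlen P _
      omega
    · exfalso
      change wlen P _ + 1 = wlen P _ at h
      have e0 : lbl P g' = (lbl P g' * ws P s) * ws P s := by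
        rw [mul_assoc, ws_sq hsS, mul_one]
      obtain ⟨g₁, g₂, e1, e2, e3⟩ := exists_factor e0
      have hg₂ : g₂ ∈ PJ P r K := by
        refine (mem_parabolic_iff_lbl hKs).2 ?_
        rw [e3]
        exact Subgroup.subset_closure ⟨s, hs, rfl⟩
      have h1 := hmin c hc (q * g₂⁻¹) (mul_mem hq (inv_mem hg₂))
      have e4 : c * g * (q * g₂⁻¹) = g₁ := by
        have : c * g * (q * g₂⁻¹) = g' * g₂⁻¹ := by rw [hg']; group
        rw [this, e1]
        group
      rw [e4, e2] at h1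
      omega
  · have h1 : g' ∈ C P (rp (lbl P g')) := mem_C_of_lbl (rp_mem _) (by rw [ws_rp])
    generalize lbl P g' = d at h1 ⊢
    obtain ⟨b₁, hb₁, b₂, hb₂, e1⟩ := mem_C.1 h1
    refine ⟨c⁻¹ * b₁, mul_mem (inv_mem hc) (B_le_parabolic _ hb₁), ?_⟩
    rw [QuotientGroup.eq]
    have e2 : g = c⁻¹ * b₁ * rp d * (b₂ * q⁻¹) := by
      have : g = c⁻¹ * g' * q⁻¹ := by rw [hg']; group
      rw [this, e1]
      group
    have e3 : g⁻¹ * (c⁻¹ * b₁ * rp d) = (b₂ * q⁻¹)⁻¹ := by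
      conv_lhs => rw [e2]
      group
    rw [e3]
    exact inv_mem (mul_mem (B_le_parabolic _ hb₂) (inv_mem hq))

/-- Uniqueness of the double coset representative of a coset. -/
theorem isO_unique {J K : Finset ι} (hJ : ∀ i ∈ J, r i ∈ P.S) (hK : ∀ i ∈ K, r i ∈ P.S) {d d' : WG P}
    (hl : (coxLen P).RedL (wJ (r '' (J : Set ι))) d) (hr : (coxLen P).RedR (wJ (r '' (K : Set ι))) d)
    (hl' : (coxLen P).RedL (wJ (r '' (J : Set ι))) d') (hr' : (coxLen P).RedR (wJ (r '' (K : Set ι))) d')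
    {x : G ⧸ PJ P r K} (hx : IsO P r J K d x) (hx' : IsO P r J K d' x) : d' = d := by
  obtain ⟨c, hc, rfl⟩ := hx
  obtain ⟨c', hc', e⟩ := hx'
  have hq : (c * rp d)⁻¹ * (c' * rp d') ∈ PJ P r K := QuotientGroup.eq.1 e
  set q := (c * rp d)⁻¹ * (c' * rp d') with hqd
  have e1 : rp d' = (c'⁻¹ * c) * (rp d * q) := by
    rw [hqd]
    group
  have hJs := wJ_sub hJ
  have hKs := wJ_sub hK
  obtain ⟨u, hu, e2⟩ := lbl_parabolic_mul hJs (mul_mem (inv_mem hc') hc) (rp d * q)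
  rw [← e1, lbl_rp] at e2
  obtain ⟨v, hv, e3⟩ := lbl_mul_parabolic hKs hq (rp d)
  rw [lbl_rp] at e3
  rw [e3] at e2
  refine (coxLen P).DR_unique (wJ_subset hJs) (wJ_subset hKs) hl hr hl' hr' _ u v hu hv rfl ?_
  rw [e2, mul_assoc]

end Orb

/-- The natural map between cosets of nested subgroups. -/
def projQ {L M : Subgroup G} (h : L ≤ M) (x : G ⧸ L) : G ⧸ M :=
  Quotient.liftOn' x (fun g => (QuotientGroup.mk g : G ⧸ M)) (by
    intro a c hac
    exact QuotientGroup.eq.2 (h (QuotientGroup.leftRel_apply.1 hac)))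

@[simp] lemma projQ_mk {L M : Subgroup G} (h : L ≤ M) (g : G) :
    projQ h (QuotientGroup.mk g : G ⧸ L) = QuotientGroup.mk g := rfl

lemma projQ_smul {L M : Subgroup G} (h : L ≤ M) (a : G) (x : G ⧸ L) : projQ h (a • x) = a • projQ h x := by
  obtain ⟨g, rfl⟩ := QuotientGroup.mk_surjective x
  rfl

/-- Adding a generator not conjugate into `J` does not change the orbit. -/
theorem card_fix_insert {J K : Finset ι} [DecidableEq ι] {a : ι} (hJ : ∀ i ∈ J, r i ∈ P.S) (hK : ∀ i ∈ K, r i ∈ P.S)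
    (ha : r a ∈ P.S) {d : WG P} (hl : (coxLen P).RedL (wJ (r '' (J : Set ι))) d)
    (hr : (coxLen P).RedR (wJ (r '' ((insert a K : Finset ι) : Set ι))) d)
    (hno : ∀ j ∈ J, d * ws P (r a) * d⁻¹ ≠ ws P (r j)) {s : G} (hs : s ∈ PJ P r J) :
    Nat.card {x : G ⧸ PJ P r K // IsO P r J K d x ∧ s • x = x} =
      Nat.card {x : G ⧸ PJ P r (insert a K) // IsO P r J (insert a K) d x ∧ s • x = x} := by
  have hsub : K ⊆ insert a K := Finset.subset_insert a K
  have hle : PJ P r K ≤ PJ P r (insert a K) := PJ_mono hsub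
  have hK' : ∀ i ∈ insert a K, r i ∈ P.S := by
    intro i hi
    rcases Finset.mem_insert.1 hi with rfl | h
    · exact ha
    · exact hK i h
  have hJs := wJ_sub hJ
  have hKs := wJ_sub hK'
  have hO : ∀ x, IsO P r J K d x → IsO P r J (insert a K) d (projQ hle x) := by
    rintro _ ⟨c, hc, rfl⟩
    exact ⟨c, hc, rfl⟩
  have hinj : ∀ x y, IsO P r J K d x → IsO P r J K d y → projQ hle x = projQ hle y → x = y := by
    rintro _ _ ⟨c, hc, rfl⟩ ⟨c', hc', rfl⟩ e
    have hq : (c * rp d)⁻¹ * (c' * rp d) ∈ PJ P r (insert a K) := QuotientGroup.eq.1 e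
    have e1 : (c⁻¹ * c') * rp d = rp d * ((c * rp d)⁻¹ * (c' * rp d)) := by group
    obtain ⟨-, h2, -⟩ := kil_lbl hJs hKs hl hr (mul_mem (inv_mem hc) hc') hq e1
    refine QuotientGroup.eq.2 ?_
    refine (mem_parabolic_iff_lbl (wJ_sub hK)).2 ?_
    refine (Subgroup.closure_mono ?_) h2
    rintro k ⟨⟨s', ⟨i, hi, rfl⟩, rfl⟩, h3⟩
    rcases Finset.mem_insert.1 (Finset.mem_coe.1 hi) with rfl | hi'
    · exfalso
      obtain ⟨_, ⟨j, hj, rfl⟩, e4⟩ := h3
      exact hno j hj e4.symm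
    · exact ⟨r i, ⟨i, hi', rfl⟩, rfl⟩
  refine Nat.card_congr (Equiv.ofBijective (fun x => ⟨projQ hle x.1, hO _ x.2.1, ?_⟩) ⟨?_, ?_⟩)
  · rw [← projQ_smul, x.2.2]
  · rintro ⟨x, hx, hx'⟩ ⟨y, hy, hy'⟩ e
    exact Subtype.ext (hinj x y hx hy (congrArg Subtype.val e))
  · rintro ⟨y, ⟨c, hc, rfl⟩, hy⟩
    have h0 : IsO P r J K d (QuotientGroup.mk (c * rp d)) := ⟨c, hc, rfl⟩
    refine ⟨⟨QuotientGroup.mk (c * rp d), h0, ?_⟩, rfl⟩
    apply hinj _ _ (isO_smul h0 hs) h0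
    rw [projQ_smul]
    exact hy

section Sum

variable [Finite G] {A : Finset ι}

variable (P r) in
/-- The generators indexed by `A` which are ascents of `d`. -/
noncomputable def Asc (A : Finset ι) (d : WG P) : Finset ι :=
  open Classical in A.filter fun i => wlen P d < wlen P (d * ws P (r i))

lemma mem_Asc {d : WG P} {i : ι} : i ∈ Asc P r A d ↔ i ∈ A ∧ wlen P d < wlen P (d * ws P (r i)) := by
  classical
  unfold Asc
  rw [Finset.mem_filter]

lemma subset_Asc {d : WG P} {K : Finset ι} : K ⊆ Asc P r A d ↔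
    K ⊆ A ∧ (coxLen P).RedR (wJ (r '' (K : Set ι))) d := by
  rw [redR_image]
  constructor
  · intro h
    exact ⟨fun i hi => (mem_Asc.1 (h hi)).1, fun i hi => (mem_Asc.1 (h hi)).2⟩
  · rintro ⟨h1, h2⟩ i hi
    exact mem_Asc.2 ⟨h1 hi, h2 i hi⟩

open Classical in
/-- The number of fixed points on the cosets of `P_K` as a sum over the `P_J`-orbits. -/
theorem card_fix_decomp [Fintype (WG P)] {J K : Finset ι} (hJ : ∀ i ∈ J, r i ∈ P.S) (hK : ∀ i ∈ K, r i ∈ P.S) (s : G) :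
    Nat.card {x : G ⧸ PJ P r K // s • x = x} =
      ∑ d ∈ Finset.univ.filter (fun d : WG P => (coxLen P).RedL (wJ (r '' (J : Set ι))) d ∧
        (coxLen P).RedR (wJ (r '' (K : Set ι))) d),
        Nat.card {x : G ⧸ PJ P r K // IsO P r J K d x ∧ s • x = x} := by
  haveI : Fintype (G ⧸ PJ P r K) := Fintype.ofFinite _
  choose ty h1 h2 h3 using exists_isO (P := P) (r := r) (J := J) (K := K) hJ hK
  simp only [Nat.card_eq_fintype_card, Fintype.card_subtype]
  refine (Finset.card_eq_sum_card_fiberwise (f := ty) (t := Finset.univ.filter (fun d : WG P =>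
    (coxLen P).RedL (wJ (r '' (J : Set ι))) d ∧ (coxLen P).RedR (wJ (r '' (K : Set ι))) d)) ?_).trans ?_
  · intro x _
    simp only [Finset.coe_filter, Finset.mem_univ, true_and, Set.mem_setOf_eq]
    exact ⟨h1 x, h2 x⟩
  · refine Finset.sum_congr rfl fun d hd => ?_
    obtain ⟨-, hd1, hd2⟩ := Finset.mem_filter.1 hd |>.imp_right (fun h => h) |> fun h => (⟨h.1, h.2.1, h.2.2⟩ : _ ∧ _ ∧ _)
    congr 1
    ext x
    simp only [Finset.mem_filter, Finset.mem_univ, true_and]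
    constructor
    · rintro ⟨h4, rfl⟩
      exact ⟨h3 x, h4⟩
    · rintro ⟨h4, h5⟩
      exact ⟨h5, isO_unique hJ hK hd1 hd2 (h1 x) (h2 x) h4 (h3 x)⟩

open Classical in
/-- The alternating sum as a sum over the `P_J`-orbits. -/
theorem stB_eq_sum [Fintype (WG P)] (h : IsGens P A r) {J : Finset ι} (hJ : ∀ i ∈ J, r i ∈ P.S) (s : G) :
    stB P A r s = ∑ d ∈ Finset.univ.filter (fun d : WG P => (coxLen P).RedL (wJ (r '' (J : Set ι))) d),
      ∑ K ∈ (Asc P r A d).powerset, (-1 : ℂ) ^ K.card *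
        (Nat.card {x : G ⧸ PJ P r K // IsO P r J K d x ∧ s • x = x} : ℂ) := by
  have h1 : ∀ K ∈ A.powerset, (-1 : ℂ) ^ K.card * fixedPointCharacter (P.parabolic (r '' (K : Set ι))) s =
      ∑ d ∈ Finset.univ.filter (fun d : WG P => (coxLen P).RedL (wJ (r '' (J : Set ι))) d ∧
        (coxLen P).RedR (wJ (r '' (K : Set ι))) d), (-1 : ℂ) ^ K.card *
        (Nat.card {x : G ⧸ PJ P r K // IsO P r J K d x ∧ s • x = x} : ℂ) := by
    intro K hK
    rw [← Finset.mul_sum]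
    congr 1
    have hK' : ∀ i ∈ K, r i ∈ P.S := fun i hi => h.mem i (Finset.mem_powerset.1 hK hi)
    have h2 := card_fix_decomp (P := P) (r := r) hJ hK' s
    unfold fixedPointCharacter
    have h3 : Nat.card (MulAction.fixedBy (G ⧸ P.parabolic (r '' (K : Set ι))) s) =
        Nat.card {x : G ⧸ PJ P r K // s • x = x} := rfl
    rw [h3, h2]
    push_cast
    rfl
  unfold stB
  rw [Finset.sum_congr rfl h1]
  refine Finset.sum_comm' ?_
  intro K d
  simp only [Finset.mem_powerset, Finset.mem_filter, Finset.mem_univ, true_and]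
  rw [subset_Asc]
  tauto

/-- A coset in the orbit of `d` fixed by `s` gives a conjugate of `s` in a smaller parabolic. -/
theorem fix_conj_sub {J K : Finset ι} (hJ : ∀ i ∈ J, r i ∈ P.S) (hK : ∀ i ∈ K, r i ∈ P.S) {d : WG P}
    (hl : (coxLen P).RedL (wJ (r '' (J : Set ι))) d) (hr : (coxLen P).RedR (wJ (r '' (K : Set ι))) d)
    {s : G} (hs : s ∈ PJ P r J)
    (hmin : ∀ J' ⊂ J, ∀ c : G, c * s * c⁻¹ ∉ PJ P r J')
    {x : G ⧸ PJ P r K} (hx : IsO P r J K d x) (hfix : s • x = x) :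
    ∀ j ∈ J, d⁻¹ * ws P (r j) * d ∈ wJ (P := P) (r '' (K : Set ι)) := by
  classical
  obtain ⟨c, hc, rfl⟩ := hx
  rw [MulAction.Quotient.smul_mk, smul_eq_mul] at hfix
  have hq : (s * (c * rp d))⁻¹ * (c * rp d) ∈ PJ P r K := QuotientGroup.eq.1 hfix
  set q := ((s * (c * rp d))⁻¹ * (c * rp d))⁻¹ with hqd
  have hq' : q ∈ PJ P r K := inv_mem hq
  have hc₁ : c⁻¹ * s * c ∈ PJ P r J := mul_mem (mul_mem (inv_mem hc) hs) hc
  have e1 : (c⁻¹ * s * c) * rp d = rp d * q := by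
    rw [hqd]
    group
  obtain ⟨h1, -, -⟩ := kil_lbl (wJ_sub hJ) (wJ_sub hK) hl hr hc₁ hq' e1
  set J' := J.filter (fun j => d⁻¹ * ws P (r j) * d ∈ wJ (P := P) (r '' (K : Set ι))) with hJ'
  have hJ's : ∀ i ∈ J', r i ∈ P.S := fun i hi => hJ i (Finset.mem_filter.1 hi).1
  have h2 : c⁻¹ * s * c ∈ PJ P r J' := by
    refine (mem_parabolic_iff_lbl (wJ_sub hJ's)).2 ((Subgroup.closure_mono ?_) h1)
    rintro _ ⟨⟨_, ⟨i, hi, rfl⟩, rfl⟩, h3⟩
    exact ⟨r i, ⟨i, Finset.mem_filter.2 ⟨hi, h3⟩, rfl⟩, rfl⟩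
  have hJ'J : J' = J := by
    by_contra hne
    have hss : J' ⊂ J := Finset.ssubset_iff_subset_ne.2 ⟨Finset.filter_subset _ _, hne⟩
    apply hmin J' hss c⁻¹
    rw [inv_inv]
    exact h2
  intro j hj
  have : j ∈ J' := by rw [hJ'J]; exact hj
  exact (Finset.mem_filter.1 this).2

end Sum

section Main

variable [Finite G] {A : Finset ι}

open Classical in
/-- The value of the alternating sum at an element of `P_J`, for `J` minimal: only one orbit, and only one parabolic,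
contribute. -/
theorem stB_semi [Fintype (WG P)] (h : IsGens P A r) (hinj : ∀ i ∈ A, ∀ j ∈ A, ws P (r i) = ws P (r j) → i = j)
    {J : Finset ι} (hJA : J ⊆ A) {a t : WG P} (ha : (coxLen P).IsTop (wJ (r '' (J : Set ι))) a) (ht : IsW0 P t)
    {s : G} (hs : s ∈ PJ P r J) (hmin : ∀ J' ⊂ J, ∀ c : G, c * s * c⁻¹ ∉ PJ P r J') :
    stB P A r s = (-1 : ℂ) ^ (Asc P r A (a⁻¹ * t)).card *
      (Nat.card {x : G ⧸ PJ P r (Asc P r A (a⁻¹ * t)) // IsO P r J (Asc P r A (a⁻¹ * t)) (a⁻¹ * t) x ∧ s • x = x} : ℂ) := by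
  have hJ : ∀ i ∈ J, r i ∈ P.S := fun i hi => h.mem i (hJA hi)
  have hJs := wJ_subset (P := P) (wJ_sub hJ)
  set d₀ := a⁻¹ * t with hd₀
  have hL : (coxLen P).RedL (wJ (r '' (J : Set ι))) d₀ := (coxLen P).dmax_redL hJs ha ht
  rw [stB_eq_sum h hJ s, Finset.sum_eq_single d₀]
  · rw [Finset.sum_eq_single (Asc P r A d₀)]
    · intro K hK hne
      have hKE := Finset.mem_powerset.1 hK
      have hKA := (subset_Asc.1 hKE)
      have hK' : ∀ i ∈ K, r i ∈ P.S := fun i hi => h.mem i (hKA.1 hi)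
      have h0 : Nat.card {x : G ⧸ PJ P r K // IsO P r J K d₀ x ∧ s • x = x} = 0 := by
        rw [Nat.card_eq_zero]
        left
        constructor
        rintro ⟨x, hx, hfix⟩
        have h1 := fix_conj_sub hJ hK' hL hKA.2 hs hmin hx hfix
        apply hne
        apply Finset.Subset.antisymm hKE
        intro i hi
        obtain ⟨hiA, hup⟩ := mem_Asc.1 hi
        have hσ : ws P (r i) ∈ (coxLen P).S := ⟨_, h.mem i hiA, rfl⟩
        obtain ⟨_, ⟨j, hj, rfl⟩, e2⟩ := (coxLen P).dmax_asc hJs ha ht hσ hup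
        obtain ⟨_, ⟨k, hk, rfl⟩, e3⟩ := h1 j hj
        have e4 : ws P (r k) = ws P (r i) := by
          rw [e3, e2, hd₀]
          group
        rw [hinj k (hKA.1 hk) i hiA e4] at hk
        exact hk
      rw [h0]
      simp
    · intro h'
      exact absurd (Finset.mem_powerset.2 subset_rfl) h'
  · intro d hd hne
    have hdL : (coxLen P).RedL (wJ (r '' (J : Set ι))) d := (Finset.mem_filter.1 hd).2
    have hnot : ¬ ∀ σ ∈ (coxLen P).S, (coxLen P).len d < (coxLen P).len (d * σ) →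
        d * σ * d⁻¹ ∈ wJ (P := P) (r '' (J : Set ι)) := fun h' =>
      hne ((coxLen P).dmax_unique hJs ha ht hdL h')
    push_neg at hnot
    obtain ⟨σ, ⟨s', hs', rfl⟩, hup, hnotin⟩ := hnot
    obtain ⟨i, hiA, rfl⟩ := h.surj s' hs'
    have hiE : i ∈ Asc P r A d := mem_Asc.2 ⟨hiA, hup⟩
    rw [← Finset.insert_erase hiE, Finset.sum_powerset_insert (Finset.notMem_erase i _), ← Finset.sum_add_distrib]
    refine Finset.sum_eq_zero fun K hK => ?_
    have hKE := Finset.mem_powerset.1 hK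
    have hiK : i ∉ K := fun hi => Finset.notMem_erase i _ (hKE hi)
    have hKA : K ⊆ Asc P r A d := hKE.trans (Finset.erase_subset _ _)
    have hK' : ∀ k ∈ K, r k ∈ P.S := fun k hk => h.mem k (mem_Asc.1 (hKA hk)).1
    have hins : insert i K ⊆ Asc P r A d := Finset.insert_subset hiE hKA
    have e1 := card_fix_insert (P := P) (r := r) (a := i) hJ hK' (h.mem i hiA) hdL (subset_Asc.1 hins).2
      (fun j hj e => hnotin ⟨r j, ⟨j, hj, rfl⟩, e.symm⟩) hs
    rw [← e1, Finset.card_insert_of_notMem hiK, pow_succ]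
    ring
  · intro h'
    exact absurd (Finset.mem_filter.2 ⟨Finset.mem_univ _, hL⟩) h'

end Main

end Cfsg.Agent.Lib.BNSt
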