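/-
(B,N)-pairs: the unipotent radical of `P_J` acts regularly on the orbit that computes the alternating sum.
-/
import Cfsg.Agent.Lib.BNSt.Semi
import Cfsg.Agent.Lib.Coprime.Glauberman

set_option autoImplicit false

namespace Cfsg.Agent.Lib.BNSt

open Cfsg Cfsg.Agent.Lib.BN

variable {G : Type*} [Group G] [Finite G] {P : BNPair G} {ι : Type*} {r : ι → G}

section Top

variable {A : Finset ι} (h : IsGens P A r) {J : Finset ι} (hJA : J ⊆ A) {a t : WG P}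
  (ha : (coxLen P).IsTop (wJ (r '' (J : Set ι))) a) (ht : IsW0 P t)

include h hJA ha ht

lemma lenJ : ∀ i ∈ J, r i ∈ P.S := fun i hi => h.mem i (hJA hi)

/-- The label of a point of the orbit of the longest representative is a translate of `d`. -/
theorem lbl_conj_closure {v : WG P} (hv : v ∈ WJ P r (Asc P r A (a⁻¹ * t))) :
    (a⁻¹ * t) * v * (a⁻¹ * t)⁻¹ ∈ WJ P r J := by
  have hJs := wJ_subset (P := P) (wJ_sub (lenJ h hJA ha ht))
  induction hv using Subgroup.closure_induction with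
  | mem x hx =>
    obtain ⟨_, ⟨i, hi, rfl⟩, rfl⟩ := hx
    obtain ⟨hiA, hup⟩ := mem_Asc.1 hi
    exact Subgroup.subset_closure ((coxLen P).dmax_asc hJs ha ht ⟨_, h.mem i hiA, rfl⟩ hup)
  | one => simp [one_mem]
  | mul x y _ _ hx hy =>
    have e : (a⁻¹ * t) * (x * y) * (a⁻¹ * t)⁻¹ = ((a⁻¹ * t) * x * (a⁻¹ * t)⁻¹) * ((a⁻¹ * t) * y * (a⁻¹ * t)⁻¹) := by group
    rw [e]
    exact mul_mem hx hy
  | inv x _ hx =>
    have e : (a⁻¹ * t) * x⁻¹ * (a⁻¹ * t)⁻¹ = ((a⁻¹ * t) * x * (a⁻¹ * t)⁻¹)⁻¹ := by group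
    rw [e]
    exact inv_mem hx

/-- The translates have no ascents in `E` except the trivial one. -/
theorem eq_one_of_redR {v : WG P} (hv : v ∈ WJ P r J)
    (hR : (coxLen P).RedR (wJ (r '' ((Asc P r A (a⁻¹ * t) : Finset ι) : Set ι))) (v * (a⁻¹ * t))) : v = 1 := by
  by_contra hne
  have hJs := wJ_subset (P := P) (wJ_sub (lenJ h hJA ha ht))
  have hL : (coxLen P).RedL (wJ (r '' (J : Set ι))) (a⁻¹ * t) := (coxLen P).dmax_redL hJs ha ht
  obtain ⟨j, hj, v₁, hv₁, rfl, hlen⟩ := (coxLen P).exists_last hJs hv hne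
  have hk := (coxLen P).dmax_conj hJs ha ht hj
  set d := a⁻¹ * t with hd
  obtain ⟨s', hs', e⟩ := hk
  obtain ⟨i, hiA, rfl⟩ := h.surj s' hs'
  have e1 : d * ws P (r i) = j * d := by
    rw [e]
    group
  have hup : wlen P d < wlen P (d * ws P (r i)) := by
    rw [e1]
    exact hL j hj
  have hiE : i ∈ Asc P r A d := mem_Asc.2 ⟨hiA, hup⟩
  have h2 := hR (ws P (r i)) ⟨r i, ⟨i, hiE, rfl⟩, rfl⟩
  have hjS := hJs hj
  have e2 : v₁ * j * d * ws P (r i) = v₁ * d := by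
    rw [mul_assoc (v₁ * j), e1, mul_assoc v₁, ← mul_assoc j, (coxLen P).sq j hjS, one_mul]
  rw [e2] at h2
  have h3 := (coxLen P).len_mul_of_redL hJs hL hv₁
  have h4 := (coxLen P).len_mul_of_redL hJs hL hv
  omega

/-- The orbit of the longest representative has the size of a cell. -/
theorem card_isO :
    Nat.card {x : G ⧸ PJ P r (Asc P r A (a⁻¹ * t)) // IsO P r J (Asc P r A (a⁻¹ * t)) (a⁻¹ * t) x} =
      fW P (a⁻¹ * t) := by
  have hJ := lenJ h hJA ha ht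
  have hJs := wJ_subset (P := P) (wJ_sub hJ)
  have hL : (coxLen P).RedL (wJ (r '' (J : Set ι))) (a⁻¹ * t) := (coxLen P).dmax_redL hJs ha ht
  set d := a⁻¹ * t with hd
  set E := Asc P r A d with hE
  have hEs : ∀ i ∈ E, r i ∈ P.S := fun i hi => h.mem i (mem_Asc.1 hi).1
  have hER : (coxLen P).RedR (wJ (r '' (E : Set ι))) d := (subset_Asc.1 (subset_refl E)).2
  unfold fW
  symm
  refine Nat.card_congr (Equiv.ofBijective (fun D => ⟨projP _ D.1, ?_⟩) ⟨?_, ?_⟩)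
  · obtain ⟨D, hD⟩ := D
    obtain ⟨g, rfl⟩ := QuotientGroup.mk_surjective D
    rw [lblQ_mk] at hD
    obtain ⟨b₁, hb₁, b₂, hb₂, rfl⟩ := mem_C.1 (mem_C_of_lbl (rp_mem d) (hD.trans (ws_rp d).symm))
    refine ⟨b₁, B_le_parabolic _ hb₁, ?_⟩
    rw [projP_mk, QuotientGroup.eq]
    have e : (b₁ * rp d * b₂)⁻¹ * (b₁ * rp d) = b₂⁻¹ := by group
    rw [e]
    exact inv_mem (B_le_parabolic _ hb₂)
  · rintro ⟨D, hD⟩ ⟨D', hD'⟩ e
    apply Subtype.ext
    have e1 := congrArg Subtype.val e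
    exact projP_inj (wJ_sub hEs) (by rw [hD]; exact hER) (by rw [hD']; exact hER) e1
  · rintro ⟨x, c, hc, rfl⟩
    obtain ⟨D, h1, h2⟩ := projP_surj (P := P) (wJ_sub hEs) (QuotientGroup.mk (c * rp d) : G ⧸ PJ P r E)
    refine ⟨⟨D, ?_⟩, Subtype.ext h2⟩
    obtain ⟨g, rfl⟩ := QuotientGroup.mk_surjective D
    rw [lblQ_mk] at h1 ⊢
    rw [projP_mk] at h2
    have hq : g⁻¹ * (c * rp d) ∈ PJ P r E := QuotientGroup.eq.1 h2
    set q := (g⁻¹ * (c * rp d))⁻¹ with hqd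
    have hq' : q ∈ PJ P r E := inv_mem hq
    have e1 : g = c * (rp d * q) := by
      rw [hqd]
      group
    obtain ⟨u, hu, e2⟩ := lbl_parabolic_mul (wJ_sub hJ) hc (rp d * q)
    rw [← e1, lbl_rp_par (wJ_sub hEs) hER hq'] at e2
    have hvW : lbl P q ∈ WJ P r E := (mem_parabolic_iff_lbl (wJ_sub hEs)).1 hq'
    have hconj : d * lbl P q * d⁻¹ ∈ WJ P r J := lbl_conj_closure h hJA ha ht hvW
    have e3 : lbl P g = (u * (d * lbl P q * d⁻¹)) * d := by
      rw [e2]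
      group
    rw [e3] at h1
    have h3 := eq_one_of_redR h hJA ha ht (mul_mem hu hconj) h1
    rw [e3, h3, one_mul]

end Top

section Reg

variable {A : Finset ι} (h : IsGens P A r) {J : Finset ι} (hJA : J ⊆ A) {a t : WG P}
  (ha : (coxLen P).IsTop (wJ (r '' (J : Set ι))) a) (ht : IsW0 P t)
  {U : Subgroup G} (hU : UData P U) {nJ : G} (hnJ : nJ ∈ P.N) (hwn : ws P nJ = a)
  (hnorm : ∀ c ∈ PJ P r J, ∀ y ∈ Ustab U P.B nJ, c * y * c⁻¹ ∈ Ustab U P.B nJ)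
  (h0 : ∀ m ∈ P.N, ws P m = t → ∀ y ∈ U, m⁻¹ * y * m ∈ P.B → y = 1)

include h hJA ha ht hU hnJ hwn hnorm h0

/-- The radical acts freely on the orbit. -/
theorem ustab_free {y : G} (hy : y ∈ Ustab U P.B nJ)
    {x : G ⧸ PJ P r (Asc P r A (a⁻¹ * t))} (hx : IsO P r J (Asc P r A (a⁻¹ * t)) (a⁻¹ * t) x) (hfix : y • x = x) :
    y = 1 := by
  have hJ := lenJ h hJA ha ht
  have hJs := wJ_subset (P := P) (wJ_sub hJ)
  set d := a⁻¹ * t with hd
  set E := Asc P r A d with hE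
  have hEs : ∀ i ∈ E, r i ∈ P.S := fun i hi => h.mem i (mem_Asc.1 hi).1
  have hER : (coxLen P).RedR (wJ (r '' (E : Set ι))) d := (subset_Asc.1 (subset_refl E)).2
  obtain ⟨c, hc, rfl⟩ := hx
  rw [MulAction.Quotient.smul_mk, smul_eq_mul] at hfix
  have hq : (y * (c * rp d))⁻¹ * (c * rp d) ∈ PJ P r E := QuotientGroup.eq.1 hfix
  set z := c⁻¹ * y * c with hz
  have hzV : z ∈ Ustab U P.B nJ := by
    have := hnorm c⁻¹ (inv_mem hc) y hy
    rwa [inv_inv] at this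
  set q := (rp d)⁻¹ * z * rp d with hqd
  have hq' : q ∈ PJ P r E := by
    have e : q = ((y * (c * rp d))⁻¹ * (c * rp d))⁻¹ := by
      rw [hqd, hz]
      group
    rw [e]
    exact inv_mem hq
  have hzB : z ∈ P.B := hU.le_B hzV.1
  have e1 : lbl P (z * rp d) = d := by
    rw [lbl_B_mul hzB, lbl_rp]
  have e2 : lbl P (rp d * q) = d * lbl P q := lbl_rp_par (wJ_sub hEs) hER hq'
  have e3 : rp d * q = z * rp d := by
    rw [hqd]
    group
  rw [e3, e1] at e2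
  have h1 : lbl P q = 1 := by
    have : d * 1 = d * lbl P q := by rw [mul_one]; exact e2
    exact (mul_left_cancel this).symm
  have hqB : q ∈ P.B := mem_B_of_lbl h1
  have hnJp : nJ ∈ PJ P r J := by
    refine (mem_parabolic_iff_lbl (wJ_sub hJ)).2 ?_
    rw [lbl_ws hnJ, hwn]
    exact ha.1
  have hy₁ := hnorm nJ hnJp z hzV
  have hm : nJ * rp d ∈ P.N := mul_mem hnJ (rp_mem d)
  have hwm : ws P (nJ * rp d) = t := by
    rw [ws_mul hnJ (rp_mem d), hwn, ws_rp, hd]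
    group
  have h2 := h0 _ hm hwm _ hy₁.1 (by
    have e : (nJ * rp d)⁻¹ * (nJ * z * nJ⁻¹) * (nJ * rp d) = q := by
      rw [hqd]
      group
    rw [e]
    exact hqB)
  have hz1 : z = 1 := by
    have : z = nJ⁻¹ * (nJ * z * nJ⁻¹) * nJ := by group
    rw [this, h2]
    group
  have : y = c * z * c⁻¹ := by
    rw [hz]
    group
  rw [this, hz1]
  group

/-- The order of the radical. -/
theorem card_ustab : Nat.card (Ustab U P.B nJ) = fW P (a⁻¹ * t) := by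
  have hJ := lenJ h hJA ha ht
  have hJs := wJ_subset (P := P) (wJ_sub hJ)
  have h1 := card_cell hU hnJ
  rw [hwn] at h1
  obtain ⟨m, hm, hwm⟩ := exists_rep t
  have h2 := card_cell hU hm
  have hb : Ustab U P.B m = ⊥ := by
    rw [eq_bot_iff]
    intro y hy
    exact h0 m hm hwm y hy.1 hy.2
  rw [hb, hwm, Subgroup.card_bot, mul_one] at h2
  have h3 : wlen P (a * (a⁻¹ * t)) = wlen P a + wlen P (a⁻¹ * t) := by
    rw [mul_inv_cancel_left]
    exact (coxLen P).dmax_len hJs ha ht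
  have h4 := fW_mul h3
  rw [mul_inv_cancel_left, h2, ← h1] at h4
  have hpos : 0 < fW P a := by
    by_contra hn
    have : fW P a = 0 := by omega
    rw [this, zero_mul] at h1
    exact (Nat.card_pos (α := U)).ne h1
  exact Nat.eq_of_mul_eq_mul_left hpos h4

/-- The radical is transitive on the orbit. -/
theorem ustab_trans {x : G ⧸ PJ P r (Asc P r A (a⁻¹ * t))}
    (hx : IsO P r J (Asc P r A (a⁻¹ * t)) (a⁻¹ * t) x) :
    ∃ y ∈ Ustab U P.B nJ, x = y • (QuotientGroup.mk (rp (a⁻¹ * t)) : G ⧸ PJ P r (Asc P r A (a⁻¹ * t))) := by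
  have hVJ : ∀ y ∈ Ustab U P.B nJ, y ∈ PJ P r J := fun y hy => B_le_parabolic _ (hU.le_B hy.1)
  have hO1 : IsO P r J (Asc P r A (a⁻¹ * t)) (a⁻¹ * t) (QuotientGroup.mk (rp (a⁻¹ * t))) :=
    ⟨1, one_mem _, by rw [one_mul]⟩
  let ψ : Ustab U P.B nJ → {x : G ⧸ PJ P r (Asc P r A (a⁻¹ * t)) // IsO P r J (Asc P r A (a⁻¹ * t)) (a⁻¹ * t) x} :=
    fun y => ⟨(y : G) • QuotientGroup.mk (rp (a⁻¹ * t)), isO_smul hO1 (hVJ y y.2)⟩
  have hψ : Function.Injective ψ := by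
    intro y y' e
    have e1 : (y : G) • (QuotientGroup.mk (rp (a⁻¹ * t)) : G ⧸ PJ P r (Asc P r A (a⁻¹ * t))) =
        (y' : G) • QuotientGroup.mk (rp (a⁻¹ * t)) :=
      congrArg Subtype.val e
    have h1 : ((y : G)⁻¹ * y') • (QuotientGroup.mk (rp (a⁻¹ * t)) : G ⧸ PJ P r (Asc P r A (a⁻¹ * t))) =
        QuotientGroup.mk (rp (a⁻¹ * t)) := by
      rw [mul_smul, ← e1, inv_smul_smul]
    have h2 := ustab_free h hJA ha ht hU hnJ hwn hnorm h0 (mul_mem (inv_mem y.2) y'.2) hO1 h1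
    apply Subtype.ext
    exact (inv_mul_eq_one.1 h2)
  have hbij := (Nat.bijective_iff_injective_and_card ψ).2 ⟨hψ, by
    rw [card_ustab h hJA ha ht hU hnJ hwn hnorm h0, card_isO h hJA ha ht]⟩
  obtain ⟨y, hy⟩ := hbij.2 ⟨x, hx⟩
  exact ⟨y, y.2, (congrArg Subtype.val hy).symm⟩

end Reg

end Cfsg.Agent.Lib.BNSt
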