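/-
(B,N)-pairs: the value of the alternating sum of the parabolic permutation characters at a semisimple element.
-/
import Cfsg.Agent.Lib.BNSt.Semi2

set_option autoImplicit false

namespace Cfsg.Agent.Lib.BNSt

open Cfsg Cfsg.Agent.Lib.BN

variable {G : Type*} [Group G] [Finite G]

section Act

variable {X : Type*} [MulAction G X]

/-- A coprime automorphism of a regular orbit has a fixed point. -/
theorem exists_fix_coprime (V L : Subgroup G) (hVL : V ≤ L) (hLV : ∀ c ∈ L, ∀ y ∈ V, c * y * c⁻¹ ∈ V) (O : Set X)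
    (hLO : ∀ c ∈ L, ∀ x ∈ O, c • x ∈ O) (hne : O.Nonempty) (htr : ∀ x ∈ O, ∀ x' ∈ O, ∃ y ∈ V, y • x = x')
    {s : G} (hs : s ∈ L) (hcop : (Nat.card V).Coprime (orderOf s)) (hsolv : Group.IsSolvable V) : ∃ x ∈ O, s • x = x := by
  set Γ : Subgroup G := V ⊔ Subgroup.zpowers s with hΓ
  have hVΓ : V ≤ Γ := le_sup_left
  have hZΓ : Subgroup.zpowers s ≤ Γ := le_sup_right
  have hΓL : Γ ≤ L := sup_le hVL ((Subgroup.zpowers_le).2 hs)
  let K : Subgroup Γ := V.subgroupOf Γ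
  let H : Subgroup Γ := (Subgroup.zpowers s).subgroupOf Γ
  haveI hKn : K.Normal := by
    refine (Subgroup.normal_subgroupOf_iff_le_normalizer hVΓ).2 ?_
    intro γ hγ
    rw [Subgroup.mem_normalizer_iff]
    intro y
    constructor
    · exact hLV γ (hΓL hγ) y
    · intro h
      have h1 := hLV γ⁻¹ (inv_mem (hΓL hγ)) _ h
      have e : γ⁻¹ * (γ * y * γ⁻¹) * γ⁻¹⁻¹ = y := by group
      rwa [e] at h1
  have hKc : Nat.card K = Nat.card V := Nat.card_congr (Subgroup.subgroupOfEquivOfLe hVΓ).toEquiv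
  have hHc : Nat.card H = orderOf s := by
    rw [← Nat.card_zpowers]
    exact Nat.card_congr (Subgroup.subgroupOfEquivOfLe hZΓ).toEquiv
  have hcop' : (Nat.card K).Coprime (Nat.card H) := by
    rw [hKc, hHc]
    exact hcop
  have hc : Subgroup.IsComplement' K H := by
    refine Subgroup.isComplement'_of_disjoint_and_mul_eq_univ ?_ ?_
    · exact disjoint_iff.2 (Subgroup.inf_eq_bot_of_coprime hcop')
    · rw [← Subgroup.normal_mul K H]
      have e : K ⊔ H = ⊤ := by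
        rw [← Subgroup.subgroupOf_sup hVΓ hZΓ, Subgroup.subgroupOf_self]
      rw [e]
      rfl
  let O' : SubMulAction Γ X :=
    { carrier := O
      smul_mem' := fun c x hx => hLO c (hΓL c.2) x hx }
  obtain ⟨x₀, hx₀⟩ := hne
  haveI : Nonempty O' := ⟨⟨x₀, hx₀⟩⟩
  have htrans : MulAction.IsPretransitive K O' := by
    refine ⟨fun x x' => ?_⟩
    obtain ⟨y, hy, e⟩ := htr x.1 x.2 x'.1 x'.2
    exact ⟨⟨⟨y, hVΓ hy⟩, Subgroup.mem_subgroupOf.2 hy⟩, Subtype.ext e⟩
  have hsK : Group.IsSolvable K := by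
    haveI := hsolv
    exact solvable_of_solvable_injective (f := (Subgroup.subgroupOfEquivOfLe hVΓ).toMonoidHom) (MulEquiv.injective _)
  obtain ⟨x, hx⟩ := Cfsg.Agent.Lib.Coprime.glauberman_internal_exists K H hc hcop' (Or.inl hsK) htrans
  refine ⟨x.1, x.2, ?_⟩
  have h1 := hx ⟨s, hZΓ (Subgroup.mem_zpowers s)⟩ (Subgroup.mem_subgroupOf.2 (Subgroup.mem_zpowers s))
  exact congrArg Subtype.val h1

omit [Finite G] in
/-- The fixed points of an automorphism of a regular orbit. -/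
theorem card_fix_regular (V : Subgroup G) (O : Set X) (hfree : ∀ y ∈ V, ∀ x ∈ O, y • x = x → y = 1)
    (hVO : ∀ y ∈ V, ∀ x ∈ O, y • x ∈ O) (htr : ∀ x ∈ O, ∀ x' ∈ O, ∃ y ∈ V, y • x = x') {s : G}
    (hsV : ∀ y ∈ V, s * y * s⁻¹ ∈ V) {x₀ : X} (hx₀ : x₀ ∈ O) (hfix : s • x₀ = x₀) :
    Nat.card {x : X // x ∈ O ∧ s • x = x} = Nat.card ↥(V ⊓ Subgroup.centralizer ({s} : Set G)) := by
  symm
  refine Nat.card_congr (Equiv.ofBijective (fun y => ⟨(y : G) • x₀, hVO _ y.2.1 _ hx₀, ?_⟩) ⟨?_, ?_⟩)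
  · have h1 : (y : G) * s = s * y := Subgroup.mem_centralizer_singleton_iff.1 y.2.2
    rw [smul_smul, ← h1, mul_smul, hfix]
  · rintro y y' e
    have e1 : (y : G) • x₀ = (y' : G) • x₀ := congrArg Subtype.val e
    have h1 : ((y : G)⁻¹ * y') • x₀ = x₀ := by
      rw [mul_smul, ← e1, inv_smul_smul]
    have h2 := hfree _ (mul_mem (inv_mem y.2.1) y'.2.1) _ hx₀ h1
    exact Subtype.ext (inv_mul_eq_one.1 h2)
  · rintro ⟨x, hx, hx'⟩
    obtain ⟨y, hy, rfl⟩ := htr x₀ hx₀ x hx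
    have h1 : (s * y * s⁻¹) • x₀ = y • x₀ := by
      have : (s * y * s⁻¹) • x₀ = s • (y • (s⁻¹ • x₀)) := by
        rw [mul_smul, mul_smul]
      rw [this, inv_smul_eq_iff.2 hfix.symm, hx']
    have h2 : (y⁻¹ * (s * y * s⁻¹)) • x₀ = x₀ := by
      rw [mul_smul, h1, inv_smul_smul]
    have h3 := hfree _ (mul_mem (inv_mem hy) (hsV y hy)) _ hx₀ h2
    have h4 : s * y * s⁻¹ = y := (inv_mul_eq_one.1 h3).symm
    refine ⟨⟨y, hy, Subgroup.mem_centralizer_singleton_iff.2 ?_⟩, rfl⟩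
    rw [mul_inv_eq_iff_eq_mul] at h4
    exact h4.symm

end Act

section Reg

variable {P : BNPair G} {ι : Type*} {r : ι → G} {A : Finset ι}

/-- The value of the alternating sum at an element of `P_J`, for `J` minimal, prime to the order of the radical. -/
theorem stB_semi_card (h : IsGens P A r) (hinj : ∀ i ∈ A, ∀ j ∈ A, ws P (r i) = ws P (r j) → i = j)
    {J : Finset ι} (hJA : J ⊆ A) {a t : WG P} (ha : (coxLen P).IsTop (wJ (r '' (J : Set ι))) a) (ht : IsW0 P t)
    {U : Subgroup G} (hU : UData P U) {nJ : G} (hnJ : nJ ∈ P.N) (hwn : ws P nJ = a)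
    (hnorm : ∀ c ∈ PJ P r J, ∀ y ∈ Ustab U P.B nJ, c * y * c⁻¹ ∈ Ustab U P.B nJ)
    (h0 : ∀ m ∈ P.N, ws P m = t → ∀ y ∈ U, m⁻¹ * y * m ∈ P.B → y = 1)
    {s : G} (hs : s ∈ PJ P r J) (hmin : ∀ J' ⊂ J, ∀ c : G, c * s * c⁻¹ ∉ PJ P r J')
    (hcop : (Nat.card (Ustab U P.B nJ)).Coprime (orderOf s)) (hsolv : Group.IsSolvable (Ustab U P.B nJ)) :
    stB P A r s = (-1 : ℂ) ^ (Asc P r A (a⁻¹ * t)).card *
      (Nat.card ↥(Ustab U P.B nJ ⊓ Subgroup.centralizer ({s} : Set G)) : ℂ) := by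
  classical
  haveI : Fintype (WG P) := Fintype.ofFinite _
  rw [stB_semi h hinj hJA ha ht hs hmin]
  congr 2
  have hVJ : Ustab U P.B nJ ≤ PJ P r J := fun y hy => B_le_parabolic _ (hU.le_B hy.1)
  have hO1 : IsO P r J (Asc P r A (a⁻¹ * t)) (a⁻¹ * t) (QuotientGroup.mk (rp (a⁻¹ * t))) :=
    ⟨1, one_mem _, by rw [one_mul]⟩
  have htr : ∀ x ∈ {x | IsO P r J (Asc P r A (a⁻¹ * t)) (a⁻¹ * t) x},
      ∀ x' ∈ {x | IsO P r J (Asc P r A (a⁻¹ * t)) (a⁻¹ * t) x}, ∃ y ∈ Ustab U P.B nJ, y • x = x' := by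
    intro x hx x' hx'
    obtain ⟨y, hy, e⟩ := ustab_trans h hJA ha ht hU hnJ hwn hnorm h0 hx
    obtain ⟨y', hy', e'⟩ := ustab_trans h hJA ha ht hU hnJ hwn hnorm h0 hx'
    refine ⟨y' * y⁻¹, mul_mem hy' (inv_mem hy), ?_⟩
    rw [e, e', mul_smul, inv_smul_smul]
  obtain ⟨x₀, hx₀, hfix⟩ := exists_fix_coprime (Ustab U P.B nJ) (PJ P r J) hVJ hnorm
    {x | IsO P r J (Asc P r A (a⁻¹ * t)) (a⁻¹ * t) x} (fun c hc x hx => isO_smul hx hc) ⟨_, hO1⟩ htr hs hcop hsolv
  exact card_fix_regular (Ustab U P.B nJ) {x | IsO P r J (Asc P r A (a⁻¹ * t)) (a⁻¹ * t) x}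
    (fun y hy x hx e => ustab_free h hJA ha ht hU hnJ hwn hnorm h0 hy hx e)
    (fun y hy x hx => isO_smul hx (hVJ hy)) htr (hnorm s hs) hx₀ hfix

end Reg

section Burn

variable {X : Type*} [MulAction G X] [Finite X]

/-- The sum of the fixed points over a coset of a subgroup centralising `s`. -/
theorem dvd_sum_fix (Q : Subgroup G) [Fintype Q] (s : G) (hs : ∀ z ∈ Q, s * z = z * s) :
    Nat.card Q ∣ ∑ z : Q, Nat.card {x : X // (s * (z : G)) • x = x} := by
  classical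
  haveI : Fintype X := Fintype.ofFinite X
  rw [sum_card_swap (fun (z : Q) (x : X) => (s * (z : G)) • x = x)]
  let Y : SubMulAction Q X :=
    { carrier := {x | ∃ z : Q, (s * (z : G)) • x = x}
      smul_mem' := by
        rintro w x ⟨z, hz⟩
        refine ⟨w * z * w⁻¹, ?_⟩
        have e : s * ((w * z * w⁻¹ : Q) : G) * (w : G) = (w : G) * (s * z) := by
          have h1 : s * (w : G) = w * s := hs w w.2
          push_cast
          calc s * ((w : G) * z * (w : G)⁻¹) * (w : G) = s * ((w : G) * z) := by group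
            _ = (s * w) * z := by group
            _ = (w * s) * z := by rw [h1]
            _ = _ := by group
        show (s * ((w * z * w⁻¹ : Q) : G)) • ((w : G) • x) = (w : G) • x
        rw [smul_smul, e, mul_smul, hz] }
  have h1 : ∀ x : X, Nat.card {z : Q // (s * (z : G)) • x = x} =
      if x ∈ Y then Nat.card {w : Q // (w : G) • x = x} else 0 := by
    intro x
    split_ifs with hx
    · obtain ⟨z₀, hz₀⟩ := hx
      refine Nat.card_congr ⟨fun z => ⟨z₀⁻¹ * z.1, ?_⟩, fun w => ⟨z₀ * w.1, ?_⟩, ?_, ?_⟩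
      · have h2 : (s * (z.1 : G)) • x = x := z.2
        rw [mul_smul] at h2 hz₀
        have h3 : (z.1 : G) • x = (z₀ : G) • x := by
          apply smul_left_cancel s
          rw [h2, hz₀]
        show ((z₀ : G)⁻¹ * (z.1 : G)) • x = x
        rw [mul_smul, h3, inv_smul_smul]
      · have h2 : (w.1 : G) • x = x := w.2
        show (s * ((z₀ : G) * (w.1 : G))) • x = x
        rw [← mul_assoc, mul_smul, h2, hz₀]
      · intro z
        apply Subtype.ext
        simp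
      · intro w
        apply Subtype.ext
        simp
    · rw [Nat.card_eq_zero]
      left
      constructor
      rintro ⟨z, hz⟩
      exact hx ⟨z, hz⟩
  rw [Finset.sum_congr rfl fun x _ => h1 x]
  have h2 : ∑ x : X, (if x ∈ Y then Nat.card {w : Q // (w : G) • x = x} else 0) =
      ∑ y : Y, Nat.card {w : Q // (w : G) • (y : X) = y} := by
    rw [← Finset.sum_filter]
    refine (Finset.sum_subtype (Finset.univ.filter (· ∈ Y)) (by simp) _)
  rw [h2]
  have h3 : ∀ y : Y, Nat.card {w : Q // (w : G) • (y : X) = y} = Nat.card {w : Q // w • y = y} := by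
    intro y
    apply Nat.card_congr
    refine Equiv.subtypeEquivRight fun w => ?_
    constructor
    · intro h
      exact Subtype.ext h
    · intro h
      exact congrArg Subtype.val h
  rw [Finset.sum_congr rfl fun y _ => h3 y]
  rw [sum_card_swap (fun (y : Y) (w : Q) => w • y = y)]
  have h4 := MulAction.sum_card_fixedBy_eq_card_orbits_mul_card_group Q Y
  have h5 : ∑ w : Q, Nat.card {y : Y // w • y = y} = ∑ w : Q, Fintype.card (MulAction.fixedBy Y w) := by
    refine Finset.sum_congr rfl fun w _ => ?_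
    rw [← Nat.card_eq_fintype_card]
    rfl
  rw [h5, h4, Nat.card_eq_fintype_card]
  exact dvd_mul_left _ _

end Burn

end Cfsg.Agent.Lib.BNSt
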