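/-
(B,N)-pairs: the value of the alternating sum of the parabolic permutation characters at a semisimple element
is, up to sign, the `p`-part of the order of the centraliser.
-/
import Cfsg.Agent.Lib.BNSt.Semi3

set_option autoImplicit false

namespace Cfsg.Agent.Lib.BNSt

open Cfsg Cfsg.Agent.Lib.BN

variable {G : Type*} [Group G]

/-- The permutation character is a class function. -/
lemma fixedPoint_class (H : Subgroup G) (a g : G) :
    fixedPointCharacter H (a * g * a⁻¹) = fixedPointCharacter H g := by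
  unfold fixedPointCharacter
  congr 1
  refine Nat.card_congr ⟨fun x => ⟨a⁻¹ • x.1, ?_⟩, fun x => ⟨a • x.1, ?_⟩, ?_, ?_⟩
  · have h : (a * g * a⁻¹) • x.1 = x.1 := x.2
    show g • (a⁻¹ • x.1) = a⁻¹ • x.1
    calc g • (a⁻¹ • x.1) = a⁻¹ • ((a * g * a⁻¹) • x.1) := by
          rw [smul_smul, smul_smul]
          congr 1
          group
      _ = a⁻¹ • x.1 := by rw [h]
  · have h : g • x.1 = x.1 := x.2
    show (a * g * a⁻¹) • (a • x.1) = a • x.1
    calc (a * g * a⁻¹) • (a • x.1) = a • (g • x.1) := by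
          rw [smul_smul, smul_smul]
          congr 1
          group
      _ = a • x.1 := by rw [h]
  · intro x
    apply Subtype.ext
    simp
  · intro x
    apply Subtype.ext
    simp

lemma stB_class {P : BNPair G} {ι : Type*} {A : Finset ι} {r : ι → G} (a g : G) :
    stB P A r (a * g * a⁻¹) = stB P A r g := by
  unfold stB
  refine Finset.sum_congr rfl fun K _ => ?_
  rw [fixedPoint_class]

/-- The order of the centraliser is a class function. -/
lemma card_centralizer_conj (a g : G) :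
    Nat.card ↥(Subgroup.centralizer ({a * g * a⁻¹} : Set G)) = Nat.card ↥(Subgroup.centralizer ({g} : Set G)) := by
  refine Nat.card_congr ⟨fun x => ⟨a⁻¹ * x.1 * a, ?_⟩, fun x => ⟨a * x.1 * a⁻¹, ?_⟩, ?_, ?_⟩
  · have h : x.1 * (a * g * a⁻¹) = (a * g * a⁻¹) * x.1 := Subgroup.mem_centralizer_singleton_iff.1 x.2
    refine Subgroup.mem_centralizer_singleton_iff.2 ?_
    calc a⁻¹ * x.1 * a * g = a⁻¹ * (x.1 * (a * g * a⁻¹)) * a := by group
      _ = a⁻¹ * ((a * g * a⁻¹) * x.1) * a := by rw [h]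
      _ = _ := by group
  · have h : x.1 * g = g * x.1 := Subgroup.mem_centralizer_singleton_iff.1 x.2
    refine Subgroup.mem_centralizer_singleton_iff.2 ?_
    calc a * x.1 * a⁻¹ * (a * g * a⁻¹) = a * (x.1 * g) * a⁻¹ := by group
      _ = a * (g * x.1) * a⁻¹ := by rw [h]
      _ = _ := by group
  · intro x
    apply Subtype.ext
    show a * (a⁻¹ * x.1 * a) * a⁻¹ = x.1
    group
  · intro x
    apply Subtype.ext
    show a⁻¹ * (a * x.1 * a⁻¹) * a = x.1
    group

variable [Finite G] {P : BNPair G} {ι : Type*} {r : ι → G} {A : Finset ι}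

/-- The alternating sum is divisible by the `p`-part of the centraliser, if it vanishes at the `p`-singular elements. -/
theorem ppart_dvd_stB {p : ℕ} (hp : p.Prime) (hv : ∀ g : G, p ∣ orderOf g → stB P A r g = 0) {s : G}
    (hs : ¬ p ∣ orderOf s) :
    ∃ Z : ℤ, stB P A r s = ((p ^ (Nat.card ↥(Subgroup.centralizer ({s} : Set G))).factorization p : ℕ) : ℂ) * (Z : ℂ) := by
  classical
  haveI : Fact p.Prime := ⟨hp⟩
  set C := Subgroup.centralizer ({s} : Set G) with hC
  obtain ⟨Q₀⟩ : Nonempty (Sylow p C) := inferInstance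
  set Q : Subgroup G := (Q₀ : Subgroup C).map C.subtype with hQ
  have hQc : Nat.card Q = p ^ (Nat.card C).factorization p := by
    rw [hQ, Subgroup.card_map_of_injective C.subtype_injective]
    exact Sylow.card_eq_multiplicity Q₀
  have hQp : IsPGroup p Q := IsPGroup.of_card hQc
  haveI : Fintype Q := Fintype.ofFinite Q
  have hQC : ∀ z ∈ Q, s * z = z * s := by
    rintro _ ⟨z, _, rfl⟩
    exact (Subgroup.mem_centralizer_singleton_iff.1 z.2).symm
  -- the sum over `s Q`
  have h1 : ∑ z : Q, stB P A r (s * (z : G)) = stB P A r s := by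
    rw [Finset.sum_eq_single (1 : Q)]
    · simp
    · intro z _ hz
      apply hv
      obtain ⟨k, hk⟩ := (IsPGroup.iff_orderOf.1 hQp) z
      have hk' : orderOf (z : G) = p ^ k := by rwa [Subgroup.orderOf_coe]
      have hcom : Commute s (z : G) := hQC z z.2
      have hcop : (orderOf s).Coprime (orderOf (z : G)) := by
        rw [hk']
        exact Nat.Coprime.pow_right _ ((Nat.coprime_comm.1 ((Nat.Prime.coprime_iff_not_dvd hp).2 hs)))
      rw [hcom.orderOf_mul_eq_mul_orderOf_of_coprime hcop, hk']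
      refine Dvd.dvd.mul_left (dvd_pow_self p ?_) _
      rintro rfl
      apply hz
      have : orderOf z = 1 := by
        rw [← Subgroup.orderOf_coe, hk', pow_zero]
      exact orderOf_eq_one_iff.1 this
    · intro h
      exact absurd (Finset.mem_univ _) h
  have hdvd : ∀ K : Finset ι, ∃ n : ℕ, ∑ z : Q, fixedPointCharacter (P.parabolic (r '' (K : Set ι))) (s * (z : G)) =
      (Nat.card Q : ℂ) * (n : ℂ) := by
    intro K
    obtain ⟨n, hn⟩ := dvd_sum_fix (X := G ⧸ P.parabolic (r '' (K : Set ι))) Q s hQC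
    refine ⟨n, ?_⟩
    unfold fixedPointCharacter
    have e : ∑ z : Q, ((Nat.card (MulAction.fixedBy (G ⧸ P.parabolic (r '' (K : Set ι))) (s * (z : G))) : ℕ) : ℂ) =
        ((∑ z : Q, Nat.card {x : G ⧸ P.parabolic (r '' (K : Set ι)) // (s * (z : G)) • x = x} : ℕ) : ℂ) := by
      push_cast
      rfl
    rw [e, hn]
    push_cast
    rfl
  choose n hn using hdvd
  refine ⟨∑ K ∈ A.powerset, (-1 : ℤ) ^ K.card * (n K : ℤ), ?_⟩
  rw [← h1, ← hQc]
  unfold stB
  rw [Finset.sum_comm]
  push_cast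
  rw [Finset.mul_sum]
  refine Finset.sum_congr rfl fun K _ => ?_
  rw [← Finset.mul_sum, hn K]
  ring

/-- The value of the alternating sum at a semisimple element. -/
theorem stB_value {p : ℕ} (hp : p.Prime) (h : IsGens P A r) (hinj : ∀ i ∈ A, ∀ j ∈ A, ws P (r i) = ws P (r j) → i = j)
    {U : Subgroup G} (hU : UData P U) (hpU : IsPGroup p U)
    (hnorm : ∀ J ⊆ A, ∀ n ∈ P.N, (coxLen P).IsTop (wJ (r '' (J : Set ι))) (ws P n) →
      ∀ c ∈ PJ P r J, ∀ y ∈ Ustab U P.B n, c * y * c⁻¹ ∈ Ustab U P.B n)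
    (h0 : ∀ t, IsW0 P t → ∀ m ∈ P.N, ws P m = t → ∀ y ∈ U, m⁻¹ * y * m ∈ P.B → y = 1)
    (hv : ∀ g : G, p ∣ orderOf g → stB P A r g = 0) {g : G} (hg : ¬ p ∣ orderOf g) :
    stB P A r g = ((p ^ (Nat.card ↥(Subgroup.centralizer ({g} : Set G))).factorization p : ℕ) : ℂ) ∨
      stB P A r g = -((p ^ (Nat.card ↥(Subgroup.centralizer ({g} : Set G))).factorization p : ℕ) : ℂ) := by
  classical
  haveI : Fact p.Prime := ⟨hp⟩
  have hnot : ∀ c : G, c * g * c⁻¹ ∈ PJ P r A := by
    intro c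
    have h2 : r '' (A : Set ι) = P.S := by
      apply Set.Subset.antisymm (wJ_sub h.mem)
      intro s hs
      obtain ⟨i, hi, rfl⟩ := h.surj s hs
      exact ⟨i, hi, rfl⟩
    show c * g * c⁻¹ ∈ P.parabolic (r '' (A : Set ι))
    rw [h2]
    show c * g * c⁻¹ ∈ P.B ⊔ Subgroup.closure P.S
    rw [sup_closure_S_eq_top]
    trivial
  have hne : (A.powerset.filter (fun J => ∃ c : G, c * g * c⁻¹ ∈ PJ P r J)).Nonempty :=
    ⟨A, Finset.mem_filter.2 ⟨Finset.mem_powerset.2 subset_rfl, 1, hnot 1⟩⟩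
  obtain ⟨J, hJF, hJmin⟩ := Finset.exists_min_image _ Finset.card hne
  obtain ⟨hJA', c, hc⟩ := Finset.mem_filter.1 hJF
  have hJA := Finset.mem_powerset.1 hJA'
  set s := c * g * c⁻¹ with hs
  have hmin : ∀ J' ⊂ J, ∀ x : G, x * s * x⁻¹ ∉ PJ P r J' := by
    intro J' hJ' x hx
    have hmem : J' ∈ A.powerset.filter (fun J => ∃ c : G, c * g * c⁻¹ ∈ PJ P r J) := by
      refine Finset.mem_filter.2 ⟨Finset.mem_powerset.2 (hJ'.subset.trans hJA), x * c, ?_⟩
      have e : x * c * g * (x * c)⁻¹ = x * s * x⁻¹ := by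
        rw [hs]
        group
      rw [e]
      exact hx
    have h1 := hJmin J' hmem
    have h2 := Finset.card_lt_card hJ'
    omega
  have hord : orderOf s = orderOf g := by
    rw [hs]
    exact orderOf_injective (MulAut.conj c).toMonoidHom (MulAut.conj c).injective g
  have hJs : ∀ i ∈ J, r i ∈ P.S := fun i hi => h.mem i (hJA hi)
  obtain ⟨a, ha⟩ := (coxLen P).exists_top (wJ_subset (P := P) (wJ_sub hJs))
  obtain ⟨t, ht⟩ := (coxLen P).exists_top (J := (coxLen P).S) subset_rfl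
  obtain ⟨nJ, hnJ, rfl⟩ := exists_rep a
  set V := Ustab U P.B nJ with hV
  have hVU : V ≤ U := fun y hy => hy.1
  have hVp : IsPGroup p V := hpU.to_le hVU
  obtain ⟨k, hk⟩ := IsPGroup.iff_card.1 hVp
  have hcop : (Nat.card V).Coprime (orderOf s) := by
    rw [hk, hord]
    exact Nat.Coprime.pow_left _ ((Nat.Prime.coprime_iff_not_dvd hp).2 hg)
  have hsolv : Group.IsSolvable V := by
    haveI := hVp.isNilpotent
    infer_instance
  have hval := stB_semi_card h hinj hJA ha ht hU hnJ rfl (hnorm J hJA nJ hnJ ha) (h0 t ht) hc hmin hcop hsolv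
  rw [← stB_class c g, ← card_centralizer_conj c g, ← hs]
  set C := Subgroup.centralizer ({s} : Set G) with hC
  set m := (Nat.card C).factorization p with hm
  set W : Subgroup G := V ⊓ C with hW
  have hWp : IsPGroup p W := hVp.to_le inf_le_left
  obtain ⟨b, hb⟩ := IsPGroup.iff_card.1 hWp
  have hWC : Nat.card W ∣ Nat.card C := by
    have : W ≤ C := inf_le_right
    exact Subgroup.card_dvd_of_le this
  have hCne : Nat.card C ≠ 0 := Nat.card_pos.ne'
  have hbm : b ≤ m := by
    rw [hb] at hWC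
    exact (hp.pow_dvd_iff_le_factorization hCne).1 hWC
  obtain ⟨Z, hZ⟩ := ppart_dvd_stB (P := P) (A := A) (r := r) hp hv (s := s) (by rw [hord]; exact hg)
  rw [hval, hb] at hZ
  have hmb : m ≤ b := by
    have hZ' : (-1 : ℤ) ^ (Asc P r A ((ws P nJ)⁻¹ * t)).card * ((p : ℤ) ^ b) = ((p : ℤ) ^ m) * Z := by
      have : (((-1 : ℤ) ^ (Asc P r A ((ws P nJ)⁻¹ * t)).card * ((p : ℤ) ^ b) : ℤ) : ℂ) = ((((p : ℤ) ^ m) * Z : ℤ) : ℂ) := by
        push_cast
        push_cast at hZ
        exact hZ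
      exact_mod_cast this
    have hd : ((p : ℤ) ^ m) ∣ (p : ℤ) ^ b := by
      have h1 : ((p : ℤ) ^ m) ∣ (-1 : ℤ) ^ (Asc P r A ((ws P nJ)⁻¹ * t)).card * ((p : ℤ) ^ b) :=
        ⟨Z, hZ'⟩
      rcases neg_one_pow_eq_or ℤ (Asc P r A ((ws P nJ)⁻¹ * t)).card with h2 | h2
      · rwa [h2, one_mul] at h1
      · rw [h2, neg_one_mul, dvd_neg] at h1
        exact h1
    have hd' : p ^ m ∣ p ^ b := by
      exact_mod_cast hd
    exact (Nat.pow_dvd_pow_iff_le_right hp.one_lt).1 hd'
  have hbe : b = m := le_antisymm hbm hmb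
  rw [hval, hb, hbe]
  rcases neg_one_pow_eq_or ℂ (Asc P r A ((ws P nJ)⁻¹ * t)).card with h2 | h2
  · left
    rw [h2, one_mul]
  · right
    rw [h2, neg_one_mul]

end Cfsg.Agent.Lib.BNSt
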