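/-
Chevalley groups: the value of the Steinberg character at a semisimple element.
-/
import Cfsg.Agent.Lib.BNSt.ChevCount
import Cfsg.Agent.Lib.BNSt.Semi4

set_option autoImplicit false

namespace Cfsg.Agent.Lib.BNSt

open Cfsg Cfsg.Lie Cfsg.Agent.Lib.Chev Cfsg.Agent.Lib.BN

variable {F : Type*} [Field F] [Fintype F] {D : ChevalleyDatum} {T : Tbl}

/-- The value of the Steinberg character at an element of order prime to `p`, given its vanishing at the others. -/
theorem steinberg_value (p : ℕ) [hp : Fact p.Prime] [CharP F p]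
    (hD : D ∈ [chevG2, chevB2, chevD4, chevF4, chevE6, chevE7, chevE8])
    (hv : ∀ g : ↥(D.group F), p ∣ orderOf g → D.steinbergCharacter F g = 0)
    (g : ↥(D.group F)) (hg : ¬ p ∣ orderOf g) :
    D.steinbergCharacter F g = ((p ^ (Nat.card ↥(Subgroup.centralizer ({g} : Set ↥(D.group F)))).factorization p : ℕ) : ℂ) ∨
      D.steinbergCharacter F g = -((p ^ (Nat.card ↥(Subgroup.centralizer ({g} : Set ↥(D.group F)))).factorization p : ℕ) : ℂ) := by
  classical
  obtain ⟨T, hG⟩ := exists_good3 hD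
  rw [steinberg_eq hG] at hv ⊢
  set P := hG.toGood2.bn (F := F) with hP
  have hU := uData (F := F) hG
  have hpp : p.Prime := hp.out
  obtain ⟨f, _, hf⟩ := FiniteField.card F p
  have hqN : Nat.card (UG D F) = p ^ (f * (D.nroots / 2)) := by
    rw [card_UG hG, Nat.card_eq_fintype_card, hf, pow_mul]
  have hpU : IsPGroup p (UG D F) := IsPGroup.of_card hqN
  refine stB_value hpp (isGens_rS hG.toGood2) ?_ hU hpU ?_ ?_ hv hg
  · -- injectivity on the generators
    intro i hi j hj e
    have hi' := Finset.mem_range.1 hi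
    have hj' := Finset.mem_range.1 hj
    have hT := (ws_eq_iff (rS_mem_S hG hi' |> S_mem_N) (rS_mem_S hG hj' |> S_mem_N)).1 e
    have hB : (rS (F := F) hG.toGood2 i)⁻¹ * rS hG.toGood2 j ∈ P.B := T_le_B hT
    have h1 : (((rS (F := F) hG.toGood2 i)⁻¹ * rS hG.toGood2 j : ↥(D.group F)) : GL D.Idx F) ∈ D.borelSubgroup F :=
      Subgroup.mem_subgroupOf.1 hB
    push_cast at h1
    rw [rS_coe _ hi', rS_coe _ hj'] at h1
    exact hG.toGood2.nU_inv_mul_mem hi' hj' h1
  · -- normality
    intro J hJ n hn htop a ha y hy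
    have hrad := Ustab_eq hG (F := F) hJ hn htop
    rw [hrad] at hy ⊢
    have ha' : (a : GL D.Idx F) ∈ D.parabolicSubgroup F (J : Set ℕ) := by
      have : a ∈ D.parabolicIn F J := by
        rw [parabolicIn_eq hG hJ]
        exact ha
      exact Subgroup.mem_subgroupOf.1 this
    exact (Subgroup.mem_normalizer_iff.1 (hG.parabolic_le_normalizer _ ha') _).1 hy
  · -- the big cell
    intro t ht m hm hwm y hy hm2
    obtain ⟨m₀, hm₀, htop, hH⟩ := exists_big (F := F) hG
    have e : t = ws P m₀ := (coxLen P).top_unique (J := (coxLen P).S) subset_rfl ht htop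
    rw [e] at hwm
    have hT := (ws_eq_iff hm hm₀).1 hwm
    have hyB : y ∈ P.B := hU.le_B hy
    have h1 : m₀⁻¹ * y * m₀ ∈ P.B := by
      have e2 : m₀⁻¹ * y * m₀ = (m⁻¹ * m₀)⁻¹ * (m⁻¹ * y * m) * (m⁻¹ * m₀) := by group
      rw [e2]
      exact mul_mem (mul_mem (inv_mem (T_le_B hT)) hm2) (T_le_B hT)
    have h2 := (hH y hyB).1 h1
    have h3 : (y : GL D.Idx F) ∈ D.posUnipotent F ⊓ D.diagonalSubgroup F :=
      ⟨Subgroup.mem_subgroupOf.1 hy, Subgroup.mem_subgroupOf.1 h2⟩
    rw [hG.toGood2.U_inf_H, Subgroup.mem_bot] at h3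
    exact Subtype.ext h3

end Cfsg.Agent.Lib.BNSt
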